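import Mathlib
import Cfsg.Agent.Lib.Hall.Schmidt
import Cfsg.Agent.Lib.Hall.Frobenius3

/-!
# Groups with an abelian maximal subgroup
-/

set_option autoImplicit false

namespace Cfsg.Agent.Lib.Hall

open Cfsg Subgroup Cfsg.Agent.Lib.Core
open scoped Pointwise commutatorElement

universe u

set_option maxHeartbeats 1000000 in
/-- **Herstein**: a finite group with an abelian maximal subgroup has derived length at most three. -/
theorem derivedSeries_three_of_abelian_coatom {G : Type u} [Group G] [Finite G] (A : Subgroup G) (hA : IsCoatom A)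
    (hAc : IsMulCommutative A) : derivedSeries G 3 = ⊥ := by
  classical
  have hAcomm : ∀ x ∈ A, ∀ y ∈ A, x * y = y * x := by
    intro x hx y hy
    exact congrArg Subtype.val (hAc.is_comm.comm ⟨x, hx⟩ ⟨y, hy⟩)
  have hAA : ⁅A, A⁆ = ⊥ := by
    rw [eq_bot_iff, Subgroup.commutator_le]
    intro x hx y hy
    rw [Subgroup.mem_bot, commutatorElement_def, hAcomm x hx y hy]
    group
  by_cases hAn : A.Normal
  · -- `G / A` has no proper nontrivial subgroups
    have hcyc : ∀ x y : G, ⁅x, y⁆ ∈ A := by
      intro x y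
      by_cases hx : x ∈ A
      · rw [commutatorElement_def]
        exact A.mul_mem (A.mul_mem hx (hAn.conj_mem _ (A.inv_mem hx) y)) (A.one_mem) |> fun h => by
          simpa [mul_assoc] using h
      · have h1 : A ⊔ zpowers x = ⊤ := by
          apply hA.2
          refine lt_of_le_of_ne le_sup_left ?_
          intro h2
          apply hx
          rw [h2]
          exact Subgroup.mem_sup_right (Subgroup.mem_zpowers x)
        have hy : y ∈ A ⊔ zpowers x := by rw [h1]; trivial
        obtain ⟨a, ha, b, hb, rfl⟩ := exists_mul_of_mem_sup_normal_left hy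
        obtain ⟨i, rfl⟩ := Subgroup.mem_zpowers_iff.mp hb
        have h3 : ⁅x, a * x ^ i⁆ = x * a * x⁻¹ * a⁻¹ := by
          have h4 : x ^ i * x⁻¹ = x⁻¹ * x ^ i := by
            rw [← zpow_neg_one, ← zpow_add, ← zpow_add, add_comm]
          simp only [commutatorElement_def, mul_inv_rev]
          calc x * (a * x ^ i) * x⁻¹ * ((x ^ i)⁻¹ * a⁻¹)
              = x * a * (x ^ i * x⁻¹) * (x ^ i)⁻¹ * a⁻¹ := by group
            _ = x * a * x⁻¹ * a⁻¹ := by rw [h4]; group
        rw [h3]
        exact A.mul_mem (hAn.conj_mem _ ha x) (A.inv_mem ha)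
    have h1 : commutator G ≤ A := by
      rw [_root_.commutator_def, Subgroup.commutator_le]
      intro x _ y _
      exact hcyc x y
    have h2 : derivedSeries G 2 = ⊥ := by
      rw [derivedSeries_succ, derivedSeries_one, eq_bot_iff, ← hAA]
      exact Subgroup.commutator_mono h1 h1
    rw [derivedSeries_succ, h2, Subgroup.commutator_bot_left]
  -- the non-normal case
  let Z : Subgroup G := center G
  have hZA : Z ≤ A := by
    by_contra h1
    apply hAn
    have h2 : A ⊔ Z = ⊤ := by
      apply hA.2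
      refine lt_of_le_of_ne le_sup_left ?_
      intro h3
      apply h1
      rw [h3]
      exact le_sup_right
    rw [← Subgroup.normalizer_eq_top_iff, eq_top_iff, ← h2]
    refine sup_le Subgroup.le_normalizer ?_
    intro z hz
    apply centralizer_le_normalizer'
    refine Subgroup.mem_centralizer_iff.mpr fun a _ => ?_
    exact (Subgroup.mem_center_iff.mp hz a)
  have hN : normalizer (A : Set G) = A := by
    by_contra h1
    have h2 : A < normalizer (A : Set G) := lt_of_le_of_ne Subgroup.le_normalizer (Ne.symm h1)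
    exact hAn (Subgroup.normalizer_eq_top_iff.mp (hA.2 _ h2))
  have hTI : ∀ g : G, g ∉ A → A ⊓ MulAut.conj g • A ≤ Z := by
    intro g hg x hx
    have hne : MulAut.conj g • A ≠ A := by
      intro h1
      apply hg
      rw [← hN]
      exact mem_normalizer_of_conj_smul_eq h1
    have h2 : A ⊔ MulAut.conj g • A = ⊤ := by
      apply hA.2
      refine lt_of_le_of_ne le_sup_left ?_
      intro h3
      apply hne
      have h4 : MulAut.conj g • A ≤ A := le_sup_right.trans h3.symm.le
      exact Subgroup.eq_of_le_of_card_ge h4 (by rw [card_conj_smul])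
    have hconjc : ∀ y ∈ MulAut.conj g • A, ∀ z ∈ MulAut.conj g • A, y * z = z * y := by
      intro y hy z hz
      rw [mem_conj_smul_iff] at hy hz
      have h3 := hAcomm _ hy _ hz
      calc y * z = g * ((g⁻¹ * y * g) * (g⁻¹ * z * g)) * g⁻¹ := by group
        _ = g * ((g⁻¹ * z * g) * (g⁻¹ * y * g)) * g⁻¹ := by rw [h3]
        _ = z * y := by group
    have h3 : (⊤ : Subgroup G) ≤ centralizer ({x} : Set G) := by
      rw [← h2]
      refine sup_le ?_ ?_
      · intro y hy
        refine Subgroup.mem_centralizer_iff.mpr ?_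
        rintro _ rfl
        exact hAcomm _ hx.1 _ hy
      · intro y hy
        refine Subgroup.mem_centralizer_iff.mpr ?_
        rintro _ rfl
        exact hconjc _ hx.2 _ hy
    refine Subgroup.mem_center_iff.mpr fun y => ?_
    have h4 := h3 (Subgroup.mem_top y)
    exact (Subgroup.mem_centralizer_iff.mp h4 x rfl).symm
  let π := QuotientGroup.mk' Z
  have hπ : Function.Surjective π := QuotientGroup.mk'_surjective Z
  have hker : ∀ g, π g = 1 ↔ g ∈ Z := fun g => QuotientGroup.eq_one_iff g
  let Ab : Subgroup (G ⧸ Z) := A.map π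
  have hcomap : Ab.comap π = A := by
    change (A.map π).comap π = A
    rw [Subgroup.comap_map_eq, QuotientGroup.ker_mk', sup_eq_left.mpr hZA]
  have hAb1 : Ab ≠ ⊥ := by
    intro h1
    apply hAn
    have h2 : A = Z := by
      apply le_antisymm _ hZA
      rw [← hcomap, h1]
      intro x hx
      rw [Subgroup.mem_comap, Subgroup.mem_bot, hker] at hx
      exact hx
    rw [h2]
    infer_instance
  have hAbt : Ab ≠ ⊤ := by
    intro h1
    apply hA.1
    rw [← hcomap, h1, Subgroup.comap_top]
  have hF : IsFrobeniusComplement Ab := by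
    refine ⟨hAb1, hAbt, ?_⟩
    intro gb hgb
    obtain ⟨g, rfl⟩ := hπ gb
    have hgA : g ∉ A := by
      intro h1
      exact hgb (Subgroup.mem_map_of_mem _ h1)
    rw [eq_bot_iff]
    rintro xb ⟨hx1, hx2⟩
    rw [← map_conj_smul] at hx2
    obtain ⟨a, ha, rfl⟩ := hx1
    obtain ⟨b, hb, hba⟩ := hx2
    have h1 : b⁻¹ * a ∈ Z := by
      rw [← hker, map_mul, map_inv, ← hba, inv_mul_cancel]
    have h2 : a ∈ MulAut.conj g • A := by
      have h3 : Z ≤ MulAut.conj g • A := by
        have := conj_smul_le_conj_smul (g := g) hZA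
        rwa [conj_smul_eq_self_of_normal g Z] at this
      have h4 : a = b * (b⁻¹ * a) := by group
      rw [h4]
      exact Subgroup.mul_mem _ hb (h3 h1)
    have h3 := hTI g hgA ⟨ha, h2⟩
    rw [Subgroup.mem_bot, hker]
    exact h3
  obtain ⟨K, hKset, hKn, hKc⟩ := Cfsg.Agent.Lib.FrobThm.frobenius_theorem Ab hF
  have hK1 : K ≠ ⊥ := by
    intro h1
    apply hAbt
    have := hKc.sup_eq_top
    rwa [h1, bot_sup_eq] at this
  have hcop := coprime_card_kernel hF hKset
  have hAbcomm : IsMulCommutative Ab := Subgroup.map_isMulCommutative _ _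
  have hAbcoatom : IsCoatom Ab := by
    have h1 : IsCoatom (Ab.comap π) := by
      rw [hcomap]
      exact hA
    constructor
    · exact hAbt
    · intro L hL
      have h2 : A < L.comap π := by
        rw [← hcomap]
        refine lt_of_le_of_ne (Subgroup.comap_mono hL.le) ?_
        intro h3
        apply not_le_of_gt hL
        intro l hl
        obtain ⟨g, rfl⟩ := hπ l
        have : g ∈ L.comap π := hl
        rw [← h3] at this
        exact this
      have h3 := hA.2 _ h2
      rw [← Subgroup.map_comap_eq_self_of_surjective hπ L, h3, ← MonoidHom.range_eq_map,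
        MonoidHom.range_eq_top]
      exact hπ
  have hAbsolv : Group.IsSolvable Ab := by
    apply Group.isSolvable_of_comm
    exact hAbcomm.is_comm.comm
  have hAbK : Ab ≤ normalizer (K : Set (G ⧸ Z)) := by
    rw [Subgroup.normalizer_eq_top_iff.mpr hKn]
    exact le_top
  obtain ⟨V, hVK, hV1, hVc, hAbV⟩ := exists_abelian_invariant Ab K hAbK hcop.symm hAbsolv hK1
  have hVeq : V = K := by
    have hinf : Ab ⊓ V = ⊥ := by
      rw [eq_bot_iff]
      rintro x ⟨h1, h2⟩
      have h3 := disjoint_iff.mp hKc.disjoint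
      have h4 : x ∈ K ⊓ Ab := ⟨hVK h2, h1⟩
      rwa [h3] at h4
    have h5 : Ab ⊔ V = ⊤ := by
      apply hAbcoatom.2
      refine lt_of_le_of_ne le_sup_left ?_
      intro h6
      apply hV1
      rw [eq_bot_iff, ← hinf]
      exact le_inf (le_sup_right.trans h6.symm.le) le_rfl
    have h6 := card_sup_of_le_normalizer hAbV hinf
    rw [h5, Subgroup.card_top] at h6
    have h7 := hKc.card_mul
    apply Subgroup.eq_of_le_of_card_ge hVK
    have h8 : Nat.card K * Nat.card Ab = Nat.card V * Nat.card Ab := by rw [h7, h6, mul_comm]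
    exact (Nat.eq_of_mul_eq_mul_right Nat.card_pos h8).le
  have hKc' : IsMulCommutative K := hVeq ▸ hVc
  have hKcomm : ∀ x ∈ K, ∀ y ∈ K, x * y = y * x := by
    intro x hx y hy
    exact congrArg Subtype.val (hKc'.is_comm.comm ⟨x, hx⟩ ⟨y, hy⟩)
  have hAbcomm' : ∀ x ∈ Ab, ∀ y ∈ Ab, x * y = y * x := by
    intro x hx y hy
    exact congrArg Subtype.val (hAbcomm.is_comm.comm ⟨x, hx⟩ ⟨y, hy⟩)
  have hcomK : commutator (G ⧸ Z) ≤ K := by
    rw [_root_.commutator_def, Subgroup.commutator_le]
    intro x _ y _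
    have hx : x ∈ K ⊔ Ab := by rw [hKc.sup_eq_top]; trivial
    have hy : y ∈ K ⊔ Ab := by rw [hKc.sup_eq_top]; trivial
    obtain ⟨k₁, hk₁, a₁, ha₁, rfl⟩ := exists_mul_of_mem_sup_normal_left hx
    obtain ⟨k₂, hk₂, a₂, ha₂, rfl⟩ := exists_mul_of_mem_sup_normal_left hy
    rw [← QuotientGroup.eq_one_iff]
    change QuotientGroup.mk' K _ = 1
    have h1 : QuotientGroup.mk' K k₁ = 1 := (QuotientGroup.eq_one_iff _).mpr hk₁
    have h2 : QuotientGroup.mk' K k₂ = 1 := (QuotientGroup.eq_one_iff _).mpr hk₂
    have h3 : QuotientGroup.mk' K (a₁ * a₂) = QuotientGroup.mk' K (a₂ * a₁) := by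
      rw [hAbcomm' a₁ ha₁ a₂ ha₂]
    simp only [commutatorElement_def, map_mul, map_inv, h1, h2, one_mul] at h3 ⊢
    calc QuotientGroup.mk' K a₁ * QuotientGroup.mk' K a₂ * (QuotientGroup.mk' K a₁)⁻¹ * (QuotientGroup.mk' K a₂)⁻¹
        = QuotientGroup.mk' K a₂ * QuotientGroup.mk' K a₁ * (QuotientGroup.mk' K a₁)⁻¹ * (QuotientGroup.mk' K a₂)⁻¹ := by
          rw [h3]
      _ = 1 := by group
  have hG2 : derivedSeries (G ⧸ Z) 2 = ⊥ := by
    rw [derivedSeries_succ, derivedSeries_one, eq_bot_iff]
    refine (Subgroup.commutator_mono hcomK hcomK).trans ?_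
    rw [Subgroup.commutator_le]
    intro x hx y hy
    rw [Subgroup.mem_bot, commutatorElement_def, hKcomm x hx y hy]
    group
  have hmap := map_derivedSeries_eq (f := π) hπ 2
  rw [hG2] at hmap
  have hle : derivedSeries G 2 ≤ Z := by
    intro x hx
    have h1 : π x ∈ (derivedSeries G 2).map π := Subgroup.mem_map_of_mem _ hx
    rw [hmap, Subgroup.mem_bot, hker] at h1
    exact h1
  rw [derivedSeries_succ, eq_bot_iff, Subgroup.commutator_le]
  intro x hx y _
  have h1 := Subgroup.mem_center_iff.mp (hle hx) y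
  rw [Subgroup.mem_bot, commutatorElement_def, ← h1]
  group

end Cfsg.Agent.Lib.Hall
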