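import Mathlib
import Cfsg.Agent.Lib.Hall.Converse
import Cfsg.Agent.Lib.Hall.SZAbelian
import Cfsg.Agent.Lib.Core.Conj
import Cfsg.Agent.Lib.Core.Basic
import Cfsg.Agent.Lib.Core.MinNormal2

/-!
# Hall complement systems
-/

set_option autoImplicit false

namespace Cfsg.Agent.Lib.Hall

open Cfsg Subgroup Cfsg.Agent.Lib.Core
open scoped Pointwise

universe u

theorem index_map_of_hall {G Q : Type*} [Group G] [Group Q] [Finite G] {p : ℕ} (hp : p.Prime) {H : Subgroup G}
    (hH : H.index = p ^ (Nat.card G).factorization p) (f : G →* Q) (hf : Function.Surjective f) :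
    (H.map f).index = p ^ (Nat.card Q).factorization p := by
  have : Finite Q := Finite.of_surjective f hf
  have h1 : (H.map f).index ∣ H.index := Subgroup.index_map_dvd H hf
  rw [hH] at h1
  obtain ⟨b, -, hb⟩ := (Nat.dvd_prime_pow hp).mp h1
  have h2 : Nat.card (H.map f) ∣ Nat.card H :=
    Subgroup.card_dvd_of_surjective (f.subgroupMap H) (f.subgroupMap_surjective H)
  have h3 : ¬ p ∣ Nat.card (H.map f) := fun hd => not_dvd_card_of_index_eq hp hH (hd.trans h2)
  have h4 := (H.map f).card_mul_index
  rw [hb] at h4 ⊢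
  have h5 : (Nat.card Q).factorization p = b := by
    rw [← h4, Nat.factorization_mul (Nat.card_pos.ne') (pow_ne_zero _ hp.ne_zero), hp.factorization_pow,
      Finsupp.add_apply, Nat.factorization_eq_zero_of_not_dvd h3, zero_add, Finsupp.single_eq_same]
  rw [h5]

theorem IsComplementSystem_map {G Q : Type*} [Group G] [Group Q] [Finite G] {K : Nat.Primes → Subgroup G}
    (hK : IsComplementSystem K) (f : G →* Q) (hf : Function.Surjective f) :
    IsComplementSystem (fun p => (K p).map f) :=
  fun p => index_map_of_hall p.2 (hK p) f hf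

theorem IsComplementSystem_conj {G : Type*} [Group G] {K : Nat.Primes → Subgroup G}
    (hK : IsComplementSystem K) (g : G) : IsComplementSystem (fun p => MulAut.conj g • K p) := by
  intro p
  rw [index_conj_smul]
  exact hK p

theorem mem_systemNormalizer {G : Type*} [Group G] {K : Nat.Primes → Subgroup G} {x : G} :
    x ∈ systemNormalizer K ↔ ∀ p, MulAut.conj x • K p = K p := by
  unfold systemNormalizer
  rw [Subgroup.mem_iInf]
  exact forall_congr' fun p => ⟨conj_smul_eq_self_of_mem_normalizer, mem_normalizer_of_conj_smul_eq⟩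

/-- A normal `r`-subgroup lies in all subgroups of index prime to `r`. -/
theorem normal_le_of_not_dvd_index {G : Type*} [Group G] [Finite G] {r : ℕ} [Fact r.Prime] {A H : Subgroup G}
    [A.Normal] (hA : IsPGroup r A) (hH : ¬ r ∣ H.index) : A ≤ H := by
  obtain ⟨g, hg⟩ := exists_conj_le_of_not_dvd_index hA hH
  rwa [conj_smul_eq_self_of_normal] at hg

/-- The elementary step in the conjugacy of complement systems. -/
theorem system_step {G : Type*} [Group G] [Finite G] {r : ℕ} [hr : Fact r.Prime] (A : Subgroup G) [hAn : A.Normal]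
    (hAc : IsMulCommutative A) (hA : IsPGroup r A) {K L : Nat.Primes → Subgroup G}
    (hK : IsComplementSystem K) (hL : IsComplementSystem L) (hKL : ∀ p, K p ⊔ A = L p ⊔ A) :
    ∃ a ∈ A, ∀ p, MulAut.conj a • K p = L p := by
  classical
  let r' : Nat.Primes := ⟨r, hr.out⟩
  let M : Subgroup G := K r' ⊔ A
  have hKM : K r' ≤ M := le_sup_left
  have hLM : L r' ≤ M := by
    show L r' ≤ K r' ⊔ A
    rw [hKL r']
    exact le_sup_left
  have hAM : A ≤ M := le_sup_right
  let A' := A.subgroupOf M
  have hA'n : A'.Normal := Subgroup.normal_subgroupOf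
  have hA'c : IsMulCommutative A' :=
    ⟨⟨fun a b => Subtype.ext (Subtype.ext (by
      show ((a : M) : G) * ((b : M) : G) = ((b : M) : G) * ((a : M) : G)
      exact congrArg Subtype.val (hAc.is_comm.comm ⟨_, a.2⟩ ⟨_, b.2⟩)))⟩⟩
  obtain ⟨k, hk⟩ := IsPGroup.iff_card.mp hA
  have hKr : ¬ r ∣ Nat.card (K r') := not_dvd_card_of_index_eq hr.out (hK r')
  have hLr : ¬ r ∣ Nat.card (L r') := not_dvd_card_of_index_eq hr.out (hL r')
  have hcA : Nat.card A' = Nat.card A := Nat.card_congr (Subgroup.subgroupOfEquivOfLe hAM).toEquiv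
  have hcK : Nat.card ((K r').subgroupOf M) = Nat.card (K r') :=
    Nat.card_congr (Subgroup.subgroupOfEquivOfLe hKM).toEquiv
  have hcL : Nat.card ((L r').subgroupOf M) = Nat.card (L r') :=
    Nat.card_congr (Subgroup.subgroupOfEquivOfLe hLM).toEquiv
  have hcopK : (Nat.card A).Coprime (Nat.card (K r')) := by
    rw [hk]
    exact Nat.Coprime.pow_left _ ((Nat.Prime.coprime_iff_not_dvd hr.out).mpr hKr)
  have hcopL : (Nat.card A).Coprime (Nat.card (L r')) := by
    rw [hk]
    exact Nat.Coprime.pow_left _ ((Nat.Prime.coprime_iff_not_dvd hr.out).mpr hLr)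
  have hcompl : ∀ X : Subgroup G, X ≤ M → (Nat.card A).Coprime (Nat.card X) → X ⊔ A = M →
      IsComplement' A' (X.subgroupOf M) := by
    intro X hXM hcop hsup
    apply isComplement'_of_inf_sup
    · rw [eq_bot_iff]
      rintro x ⟨hx1, hx2⟩
      have h1 : (x : G) ∈ A ⊓ X := ⟨hx1, hx2⟩
      have h2 : A ⊓ X = ⊥ := by
        apply Subgroup.eq_bot_of_card_eq
        exact Nat.eq_one_of_dvd_coprimes hcop (Subgroup.card_dvd_of_le inf_le_left)
          (Subgroup.card_dvd_of_le inf_le_right)
      rw [h2, Subgroup.mem_bot] at h1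
      rw [Subgroup.mem_bot]
      exact Subtype.ext h1
    · rw [eq_top_iff]
      rintro ⟨x, hx⟩ -
      have hx' : x ∈ X ⊔ A := by rw [hsup]; exact hx
      obtain ⟨u, hu, a, ha, rfl⟩ := Subgroup.mem_sup_of_normal_right.mp hx'
      have h3 : (⟨u * a, hx⟩ : M) = (⟨a, hAM ha⟩ : M) * (⟨a⁻¹ * u * a, by
          have h4 : a⁻¹ * u * a = a⁻¹ * (u * a) := by group
          rw [h4]
          exact M.mul_mem (M.inv_mem (hAM ha)) hx⟩ : M) := by
        apply Subtype.ext
        simp only [Subgroup.coe_mul]
        group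
      have h5 : (⟨u, hXM hu⟩ : M) ∈ X.subgroupOf M := hu
      have h6 : (⟨u * a, hx⟩ : M) = (⟨u * a * u⁻¹, hAn.conj_mem a ha u |> hAM⟩ : M) * (⟨u, hXM hu⟩ : M) := by
        apply Subtype.ext
        simp only [Subgroup.coe_mul]
        group
      rw [h6]
      exact Subgroup.mul_mem _ (Subgroup.mem_sup_left (show _ ∈ A' from hAn.conj_mem a ha u))
        (Subgroup.mem_sup_right h5)
  have hc₁ := hcompl (K r') hKM hcopK rfl
  have hc₂ := hcompl (L r') hLM hcopL (hKL r').symm
  have hidx : A'.index = Nat.card ((K r').subgroupOf M) := hc₁.symm.index_eq_card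
  have hcop' : (Nat.card A').Coprime A'.index := by
    rw [hidx, hcA, hcK]
    exact hcopK
  have hA'c' := hA'c
  obtain ⟨a, ha, hconj⟩ := exists_conj_of_isComplement'_of_abelian A' hcop' _ _ hc₁ hc₂
  have hconj' : MulAut.conj (a : G) • K r' = L r' := conj_smul_of_subgroupOf hKM hLM hconj
  refine ⟨(a : G), ha, ?_⟩
  intro p
  by_cases hp : p = r'
  · rw [hp]
    exact hconj'
  have hpr : (p : ℕ) ≠ r := fun h => hp (Subtype.ext h)
  have hnd : ∀ X : Subgroup G, X.index = (p : ℕ) ^ (Nat.card G).factorization p → ¬ r ∣ X.index := by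
    intro X hX h1
    rw [hX] at h1
    exact hpr ((Nat.prime_dvd_prime_iff_eq hr.out p.2).mp (hr.out.dvd_of_dvd_pow h1)).symm
  have hAK : A ≤ K p := normal_le_of_not_dvd_index hA (hnd _ (hK p))
  have hAL : A ≤ L p := normal_le_of_not_dvd_index hA (hnd _ (hL p))
  have h1 := hKL p
  rw [sup_eq_left.mpr hAK, sup_eq_left.mpr hAL] at h1
  rw [Cfsg.Agent.Lib.Core.conj_smul_eq_self_of_mem (show (a : G) ∈ K p from hAK ha), h1]

/-- **Conjugacy of complement systems**, relative form. -/
theorem system_conj_rel : ∀ (n : ℕ) (G : Type u) [Group G] [Finite G] [Group.IsSolvable G] (N : Subgroup G) [N.Normal],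
    Nat.card N = n → ∀ (K L : Nat.Primes → Subgroup G), IsComplementSystem K → IsComplementSystem L →
    (∀ p, K p ⊔ N = L p ⊔ N) → ∃ g ∈ N, ∀ p, MulAut.conj g • K p = L p := by
  intro n
  induction n using Nat.strong_induction_on with
  | _ n ih =>
    intro G _ _ _ N hNn hn K L hK hL hKL
    by_cases hN1 : N = ⊥
    · refine ⟨1, N.one_mem, fun p => ?_⟩
      have h1 := hKL p
      rw [hN1, sup_bot_eq, sup_bot_eq] at h1
      rw [conj_one_smul, h1]
    obtain ⟨A, hAn, hA1, hAN, hAmin⟩ := exists_minimal_normal_le hNn hN1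
    have hAnn := hAn
    obtain ⟨hAc, r, hr, hAr⟩ := minimal_normal_elementary A hA1 hAmin
    have hrf : Fact r.Prime := ⟨hr⟩
    have hApg : IsPGroup r A := by
      intro x
      refine ⟨1, ?_⟩
      apply Subtype.ext
      simpa using hAr x x.2
    let π := QuotientGroup.mk' A
    have hπ : Function.Surjective π := QuotientGroup.mk'_surjective A
    have hker : π.ker = A := QuotientGroup.ker_mk' A
    have hNb : (N.map π).Normal := hNn.map π hπ
    have hlt : Nat.card (N.map π) < n := by
      have h1 := card_comap_of_surjective π hπ (N.map π)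
      rw [Subgroup.comap_map_eq_self (by rw [hker]; exact hAN), hker, hn] at h1
      have h2 : 1 < Nat.card A := by
        have := Nat.card_pos (α := A)
        by_contra h3
        exact hA1 (Subgroup.eq_bot_of_card_eq A (by omega))
      have h3 : 0 < Nat.card (N.map π) := Nat.card_pos
      rw [h1]
      nlinarith
    obtain ⟨gb, hgb, hconj⟩ := ih _ hlt (G ⧸ A) (N.map π) rfl (fun p => (K p).map π) (fun p => (L p).map π)
      (IsComplementSystem_map hK π hπ) (IsComplementSystem_map hL π hπ) (fun p => by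
        rw [← Subgroup.map_sup, ← Subgroup.map_sup, hKL p])
    obtain ⟨m, hm, rfl⟩ := hgb
    have hK' := IsComplementSystem_conj hK m
    have hKL' : ∀ p, MulAut.conj m • K p ⊔ A = L p ⊔ A := by
      intro p
      have h1 := hconj p
      rw [← map_conj_smul] at h1
      have h2 := congrArg (Subgroup.comap π) h1
      rw [Subgroup.comap_map_eq, Subgroup.comap_map_eq, hker] at h2
      exact h2
    obtain ⟨a, ha, hac⟩ := system_step A hAc hApg hK' hL hKL'
    refine ⟨a * m, N.mul_mem (hAN ha) hm, fun p => ?_⟩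
    rw [← conj_smul_conj_smul]
    exact hac p

/-- **Conjugacy of complement systems.** -/
theorem system_conj {G : Type u} [Group G] [Finite G] [Group.IsSolvable G] {K L : Nat.Primes → Subgroup G}
    (hK : IsComplementSystem K) (hL : IsComplementSystem L) : ∃ g : G, ∀ p, MulAut.conj g • K p = L p := by
  obtain ⟨g, -, hg⟩ := system_conj_rel _ G ⊤ rfl K L hK hL (fun p => by simp)
  exact ⟨g, hg⟩

/-- **System normalizers in quotients**. -/
theorem systemNormalizer_map {G : Type u} [Group G] [Finite G] [Group.IsSolvable G] {K : Nat.Primes → Subgroup G}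
    (hK : IsComplementSystem K) (N : Subgroup G) [hNn : N.Normal] :
    systemNormalizer (fun p => (K p).map (QuotientGroup.mk' N)) =
      (systemNormalizer K).map (QuotientGroup.mk' N) := by
  let π := QuotientGroup.mk' N
  have hπ : Function.Surjective π := QuotientGroup.mk'_surjective N
  have hker : π.ker = N := QuotientGroup.ker_mk' N
  apply le_antisymm
  · intro y hy
    obtain ⟨x, rfl⟩ := hπ y
    rw [mem_systemNormalizer] at hy
    have hK' := IsComplementSystem_conj hK x
    have hKL : ∀ p, MulAut.conj x • K p ⊔ N = K p ⊔ N := by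
      intro p
      have h1 := hy p
      rw [← map_conj_smul] at h1
      have h2 := congrArg (Subgroup.comap π) h1
      rw [Subgroup.comap_map_eq, Subgroup.comap_map_eq, hker] at h2
      exact h2
    obtain ⟨n, hn, hnc⟩ := system_conj_rel _ G N rfl _ K hK' hK hKL
    refine ⟨n * x, ?_, ?_⟩
    · refine mem_systemNormalizer.mpr fun p => ?_
      rw [← conj_smul_conj_smul]
      exact hnc p
    · have h3 : π n = 1 := (QuotientGroup.eq_one_iff n).mpr hn
      rw [map_mul, h3, one_mul]
  · rintro _ ⟨x, hx, rfl⟩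
    have hx' := mem_systemNormalizer.mp hx
    refine mem_systemNormalizer.mpr fun p => ?_
    show MulAut.conj (π x) • (K p).map π = (K p).map π
    rw [← map_conj_smul, hx' p]

end Cfsg.Agent.Lib.Hall
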