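import Mathlib
import Cfsg.Agent.Lib.Hall.Carter
import Cfsg.Agent.Lib.Hall.System
import Cfsg.Agent.Lib.Core.Product

/-!
# Carter subgroups and system normalizers
-/

set_option autoImplicit false

namespace Cfsg.Agent.Lib.Hall

open Cfsg Subgroup Cfsg.Agent.Lib.Core
open scoped Pointwise commutatorElement

universe u

/-- The system `K` reduces into `C`. -/
def ReducesInto {G : Type*} [Group G] [Finite G] (C : Subgroup G) (K : Nat.Primes → Subgroup G) : Prop :=
  ∀ r : Nat.Primes, ∃ P Q : Subgroup G, NilParts (r : ℕ) C P Q ∧ Q ≤ K r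

theorem systemNormalizer_le_carter : ∀ (n : ℕ) (G : Type u) [Group G] [Finite G] [Group.IsSolvable G],
    Nat.card G = n → ∀ C : Subgroup G, Group.IsNilpotent C → normalizer (C : Set G) = C →
      ∀ K : Nat.Primes → Subgroup G, IsComplementSystem K → ReducesInto C K → systemNormalizer K ≤ C := by
  intro n
  induction n using Nat.strong_induction_on with
  | _ n ih =>
    intro G _ _ _ hn C hCn hCs K hK hred
    by_cases hsub : Subsingleton G
    · intro x _
      rw [Subsingleton.elim x 1]
      exact C.one_mem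
    have hnt : Nontrivial G := not_subsingleton_iff_nontrivial.mp hsub
    obtain ⟨N, r, hNn, hN1, hr, hNp⟩ := exists_normal_prime_group G
    have hrf : Fact r.Prime := ⟨hr⟩
    let π := QuotientGroup.mk' N
    have hπ : Function.Surjective π := QuotientGroup.mk'_surjective N
    have hC' := carter_map_mk hNp hCn hCs
    have hred' : ReducesInto (C.map π) (fun p => (K p).map π) := by
      intro q
      obtain ⟨P, Q, hq, hQ⟩ := hred q
      exact ⟨P.map π, Q.map π, hq.map π, Subgroup.map_mono hQ⟩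
    have h1 := ih _ (hn ▸ card_quotient_lt hN1) (G ⧸ N) rfl _ hC'.1 hC'.2 _
      (IsComplementSystem_map hK π hπ) hred'
    rw [systemNormalizer_map hK N] at h1
    have hDL : systemNormalizer K ≤ C ⊔ N := by
      have h2 := Subgroup.comap_mono (f := π) h1
      rw [Subgroup.comap_map_eq, Subgroup.comap_map_eq, QuotientGroup.ker_mk'] at h2
      exact le_sup_left.trans h2
    intro d hd
    obtain ⟨P, Q, hq, hQ⟩ := hred ⟨r, hr⟩
    have hq' : NilParts r C P Q := hq
    have hQ' : Q ≤ K ⟨r, hr⟩ := hQ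
    obtain ⟨k, hk⟩ := nilParts_card_sup hq' hNp
    have hnd : ¬ r ∣ Nat.card (K ⟨r, hr⟩) := not_dvd_card_of_index_eq hr (hK ⟨r, hr⟩)
    have hEq : K ⟨r, hr⟩ ⊓ (C ⊔ N) = Q := by
      symm
      apply Subgroup.eq_of_le_of_card_ge (le_inf hQ' (hq'.le_right.trans le_sup_left))
      apply Nat.le_of_dvd Nat.card_pos
      have h3 : Nat.card (K ⟨r, hr⟩ ⊓ (C ⊔ N) : Subgroup G) ∣ Nat.card Q * r ^ k := by
        rw [← hk]
        exact Subgroup.card_dvd_of_le inf_le_right
      have h4 : (Nat.card (K ⟨r, hr⟩ ⊓ (C ⊔ N) : Subgroup G)).Coprime (r ^ k) := by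
        apply Nat.Coprime.pow_right
        apply Nat.Coprime.symm
        rw [Nat.Prime.coprime_iff_not_dvd hr]
        intro h5
        exact hnd (h5.trans (Subgroup.card_dvd_of_le inf_le_left))
      exact h4.dvd_of_dvd_mul_right h3
    have hZ := carter_inf_normalizer hNp hCn hCs hq'
    rw [← hZ]
    refine ⟨hDL hd, ?_⟩
    apply mem_normalizer_of_conj_smul_eq
    rw [← hEq, Subgroup.smul_inf, mem_systemNormalizer.mp hd ⟨r, hr⟩,
      Cfsg.Agent.Lib.Core.conj_smul_eq_self_of_mem (hDL hd)]

theorem exists_reducing {G : Type u} [Group G] [Finite G] [Group.IsSolvable G] (C : Subgroup G)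
    (hCn : Group.IsNilpotent C) : ∃ K : Nat.Primes → Subgroup G, IsComplementSystem K ∧ ReducesInto C K := by
  classical
  have key : ∀ r : Nat.Primes, ∃ H : Subgroup G, H.index = (r : ℕ) ^ (Nat.card G).factorization r ∧
      ∃ P Q : Subgroup G, NilParts (r : ℕ) C P Q ∧ Q ≤ H := by
    intro r
    have hrf : Fact (r : ℕ).Prime := ⟨r.2⟩
    obtain ⟨P, Q, hq⟩ := exists_nilParts (r : ℕ) C hCn
    have h1 : Nat.card G = ordCompl[(r : ℕ)] (Nat.card G) * (r : ℕ) ^ (Nat.card G).factorization r := by
      rw [mul_comm]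
      exact (Nat.ordProj_mul_ordCompl_eq_self _ _).symm
    have h2 : (ordCompl[(r : ℕ)] (Nat.card G)).Coprime ((r : ℕ) ^ (Nat.card G).factorization r) := by
      apply Nat.Coprime.pow_right
      exact (Nat.coprime_ordCompl r.2 Nat.card_pos.ne').symm
    obtain ⟨H, hH, hQH⟩ := exists_card_eq_and_le_of_solvable _ _ h1 h2 Q
      (Nat.Coprime.pow_right _ ((Nat.Prime.coprime_iff_not_dvd r.2).mpr hq.not_dvd).symm)
    refine ⟨H, ?_, P, Q, hq, hQH⟩
    have h3 := H.card_mul_index
    rw [hH] at h3
    conv_rhs at h3 => rw [h1]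
    exact Nat.eq_of_mul_eq_mul_left (Nat.pos_of_ne_zero (by
      intro h0
      rw [h0, zero_mul] at h1
      exact Nat.card_pos.ne' h1)) h3
  choose K hK hred using key
  exact ⟨K, hK, hred⟩

theorem systemNormalizer_conj {G : Type*} [Group G] {K₀ K : Nat.Primes → Subgroup G} {g : G}
    (h : ∀ p, MulAut.conj g • K₀ p = K p) :
    systemNormalizer K = MulAut.conj g • systemNormalizer K₀ := by
  ext x
  rw [mem_conj_smul_iff, mem_systemNormalizer, mem_systemNormalizer]
  constructor
  · intro hx p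
    have h1 := hx p
    rw [← h p] at h1
    have h2 := congrArg (fun X => MulAut.conj g⁻¹ • X) h1
    simp only [conj_smul_conj_smul] at h2
    have h3 : g⁻¹ * x * g = g⁻¹ * (x * g) := by group
    rw [h3, h2, inv_mul_cancel, conj_one_smul]
  · intro hx p
    have h1 := hx p
    have h2 := congrArg (fun X => MulAut.conj g • X) h1
    simp only [conj_smul_conj_smul, h] at h2
    have h3 : g * (g⁻¹ * x * g) = x * g := by group
    rw [h3, ← conj_smul_conj_smul, h] at h2
    exact h2

/-- Carter subgroups and system normalizers, first half. -/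
theorem carter_exists_system {G : Type u} [Group G] [Finite G] [Group.IsSolvable G] (C : Subgroup G)
    (hC : IsCarterSubgroup C) : ∃ K : Nat.Primes → Subgroup G, IsComplementSystem K ∧ systemNormalizer K ≤ C := by
  obtain ⟨K, hK, hred⟩ := exists_reducing C hC.1
  exact ⟨K, hK, systemNormalizer_le_carter _ G rfl C hC.1 hC.2 K hK hred⟩

theorem system_exists_carter {G : Type u} [Group G] [Finite G] [Group.IsSolvable G]
    (K : Nat.Primes → Subgroup G) (hK : IsComplementSystem K) :
    ∃ C : Subgroup G, IsCarterSubgroup C ∧ systemNormalizer K ≤ C := by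
  obtain ⟨C₀, hC₀n, hC₀s⟩ := exists_carter _ G rfl
  obtain ⟨K₀, hK₀, hle⟩ := carter_exists_system C₀ ⟨hC₀n, hC₀s⟩
  obtain ⟨g, hg⟩ := system_conj hK₀ hK
  refine ⟨MulAut.conj g • C₀, carter_conj_smul hC₀n hC₀s g, ?_⟩
  rw [systemNormalizer_conj hg]
  exact conj_smul_le_conj_smul hle

theorem carter_subgroupOf {G : Type*} [Group G] [Finite G] {C L : Subgroup G} (hCL : C ≤ L)
    (hCn : Group.IsNilpotent C) (hCs : normalizer (C : Set G) = C) :
    Group.IsNilpotent (C.subgroupOf L) ∧ normalizer ((C.subgroupOf L : Subgroup L) : Set L) = C.subgroupOf L := by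
  refine ⟨Group.nilpotent_of_mulEquiv (Subgroup.subgroupOfEquivOfLe hCL).symm, ?_⟩
  apply le_antisymm _ Subgroup.le_normalizer
  intro u hu
  rw [Subgroup.mem_subgroupOf, ← hCs]
  apply mem_normalizer_fintype
  intro n hn
  exact (mem_normalizer_iff.mp hu ⟨n, hCL hn⟩).mp hn

/-- The join of a Carter subgroup and a normal subgroup is self-normalizing. -/
theorem carter_normalizer_sup' {G : Type u} [Group G] [Finite G] [Group.IsSolvable G] {C F : Subgroup G}
    [hF : F.Normal] (hCn : Group.IsNilpotent C) (hCs : normalizer (C : Set G) = C) :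
    normalizer ((C ⊔ F : Subgroup G) : Set G) = C ⊔ F := by
  apply le_antisymm _ Subgroup.le_normalizer
  intro g hg
  have hCL : C ≤ C ⊔ F := le_sup_left
  have hC1L : MulAut.conj g • C ≤ C ⊔ F := by
    have := conj_smul_le_conj_smul (g := g) hCL
    rwa [conj_smul_eq_self_of_mem_normalizer hg] at this
  obtain ⟨hC₁n, hC₁s⟩ := carter_conj_smul hCn hCs g
  have h1 := carter_subgroupOf hCL hCn hCs
  have h2 := carter_subgroupOf hC1L hC₁n hC₁s
  obtain ⟨u, hu⟩ := carter_conj _ (C ⊔ F : Subgroup G) rfl _ _ h1.1 h1.2 h2.1 h2.2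
  have h3 := conj_smul_of_subgroupOf hCL hC1L hu
  have h4 : (u : G)⁻¹ * g ∈ normalizer (C : Set G) := by
    apply mem_normalizer_of_conj_smul_eq
    rw [← conj_smul_conj_smul, ← h3, conj_inv_smul_conj_smul]
  rw [hCs] at h4
  have h5 : g = u * ((u : G)⁻¹ * g) := by group
  rw [h5]
  exact Subgroup.mul_mem _ u.2 (Subgroup.mem_sup_left h4)

/-- If `F` is normal and `G / F` is nilpotent, then `G = C F` for Carter subgroups `C`. -/
theorem carter_sup_eq_top {G : Type u} [Group G] [Finite G] [Group.IsSolvable G] {C F : Subgroup G}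
    [hF : F.Normal] (hGF : Group.IsNilpotent (G ⧸ F)) (hCn : Group.IsNilpotent C)
    (hCs : normalizer (C : Set G) = C) : C ⊔ F = ⊤ := by
  have hπ := QuotientGroup.mk'_surjective F
  have h1 := carter_normalizer_sup' (F := F) hCn hCs
  have h3 : C ⊔ F = (C.map (QuotientGroup.mk' F)).comap (QuotientGroup.mk' F) := by
    rw [Subgroup.comap_map_eq, QuotientGroup.ker_mk']
  have h2 : normalizer ((C.map (QuotientGroup.mk' F) : Subgroup (G ⧸ F)) : Set (G ⧸ F)) =
      C.map (QuotientGroup.mk' F) := by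
    apply le_antisymm _ Subgroup.le_normalizer
    intro xb hxb
    obtain ⟨g, rfl⟩ := hπ xb
    have h5 : g ∈ normalizer ((C ⊔ F : Subgroup G) : Set G) := by
      rw [h3, ← Subgroup.comap_normalizer_eq_of_surjective _ hπ]
      exact hxb
    rw [h1, h3] at h5
    exact h5
  have ht : Group.IsNilpotent (⊤ : Subgroup (G ⧸ F)) :=
    Group.nilpotent_of_mulEquiv (Subgroup.topEquiv (G := G ⧸ F)).symm
  have h4 := le_of_self_normalizing le_top ht h2
  rw [h3, top_le_iff.mp h4, Subgroup.comap_top]

/-- A nilpotent-by-nilpotent group: every Carter subgroup is a system normalizer. -/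
theorem carter_eq_system {G : Type u} [Group G] [Finite G] [Group.IsSolvable G] (F : Subgroup G) [hFn : F.Normal]
    (hF : Group.IsNilpotent F) (hGF : Group.IsNilpotent (G ⧸ F)) (C : Subgroup G) (hC : IsCarterSubgroup C) :
    ∃ K : Nat.Primes → Subgroup G, IsComplementSystem K ∧ C = systemNormalizer K := by
  classical
  have htop := carter_sup_eq_top hGF hC.1 hC.2
  have key : ∀ r : Nat.Primes, ∃ H : Subgroup G, H.index = (r : ℕ) ^ (Nat.card G).factorization r ∧
      (∃ P Q : Subgroup G, NilParts (r : ℕ) C P Q ∧ Q ≤ H) ∧ C ≤ normalizer (H : Set G) := by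
    intro r
    have hrf : Fact (r : ℕ).Prime := ⟨r.2⟩
    obtain ⟨P, Q, hq⟩ := exists_nilParts (r : ℕ) C hC.1
    obtain ⟨A, B, hf⟩ := exists_nilParts (r : ℕ) F hF
    have hBn : B.Normal := by
      rw [← Subgroup.normalizer_eq_top_iff, eq_top_iff, ← Subgroup.normalizer_eq_top_iff.mpr hFn]
      exact hf.normalizer_le
    have hAn : A.Normal := by
      constructor
      intro a ha g
      have h1 : MulAut.conj g • A ≤ F := by
        have := conj_smul_le_conj_smul (g := g) hf.le_left
        rwa [conj_smul_eq_self_of_normal g F] at this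
      have h2 : IsPGroup (r : ℕ) (MulAut.conj g • A : Subgroup G) := hf.isP.map _
      exact hf.le_left_of h1 h2 (conj_mem_conj_smul ha)
    let H : Subgroup G := Q ⊔ B
    let Y : Subgroup G := P ⊔ A
    have hYp : IsPGroup (r : ℕ) Y := hq.isP.to_sup_of_normal_right hf.isP
    have hHcop : (Nat.card H).Coprime (r : ℕ) :=
      coprime_card_sup Q B ((Nat.Prime.coprime_iff_not_dvd r.2).mpr hq.not_dvd).symm
        ((Nat.Prime.coprime_iff_not_dvd r.2).mpr hf.not_dvd).symm
    have hHr : ¬ (r : ℕ) ∣ Nat.card H := fun h1 => r.2.ne_one (Nat.Coprime.eq_one_of_dvd hHcop.symm h1)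
    have hmul : ∀ g : G, ∃ x ∈ H, ∃ y ∈ Y, g = x * y := by
      intro g
      have hg : g ∈ C ⊔ F := by rw [htop]; trivial
      obtain ⟨c, hc, f, hf', rfl⟩ := exists_mul_of_le_normalizer
        (by rw [Subgroup.normalizer_eq_top_iff.mpr hFn]; exact le_top) hg
      obtain ⟨p, hp, q, hq', rfl, hpq⟩ := hq.exists_mul hc
      obtain ⟨a, ha, b, hb, rfl, -⟩ := hf.exists_mul hf'
      refine ⟨q * (p * a * b * (p * a)⁻¹), Subgroup.mul_mem _ (Subgroup.mem_sup_left hq')
        (Subgroup.mem_sup_right (hBn.conj_mem _ hb _)), p * a,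
        Subgroup.mul_mem _ (Subgroup.mem_sup_left hp) (Subgroup.mem_sup_right ha), ?_⟩
      rw [hpq]
      group
    have hHY : H ⊓ Y = ⊥ := by
      apply Subgroup.eq_bot_of_card_eq
      obtain ⟨k, hk⟩ := IsPGroup.iff_card.mp hYp
      have hcop : (Nat.card H).Coprime (Nat.card Y) := by
        rw [hk]
        exact Nat.Coprime.pow_right _ hHcop
      exact Nat.eq_one_of_dvd_coprimes hcop (Subgroup.card_dvd_of_le inf_le_left)
        (Subgroup.card_dvd_of_le inf_le_right)
    have h1 := card_mul_card_of_mul hmul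
    rw [hHY] at h1
    simp only [Subgroup.card_bot, mul_one] at h1
    refine ⟨H, ?_, ⟨P, Q, hq, le_sup_left⟩, ?_⟩
    · obtain ⟨k, hk⟩ := IsPGroup.iff_card.mp hYp
      have h2 := H.card_mul_index
      have h3 : H.index = Nat.card Y := by
        rw [← h1] at h2
        exact Nat.eq_of_mul_eq_mul_left Nat.card_pos h2
      rw [h3, hk]
      congr 1
      rw [← h1, hk, Nat.factorization_mul Nat.card_pos.ne' (pow_ne_zero _ r.2.ne_zero)]
      simp [Nat.factorization_eq_zero_of_not_dvd hHr, r.2.factorization_pow]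
    · intro x hx
      apply mem_normalizer_of_conj_smul_eq
      change MulAut.conj x • (Q ⊔ B) = Q ⊔ B
      rw [Subgroup.smul_sup, conj_smul_eq_self_of_normal x B,
        conj_smul_eq_self_of_mem_normalizer (hq.le_normalizer hx)]
  choose K hK hred hnorm using key
  refine ⟨K, hK, le_antisymm ?_ (systemNormalizer_le_carter _ G rfl C hC.1 hC.2 K hK hred)⟩
  intro x hx
  exact mem_systemNormalizer.mpr fun p => conj_smul_eq_self_of_mem_normalizer (hnorm p hx)

end Cfsg.Agent.Lib.Hall
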