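import Mathlib
import Cfsg.Agent.Lib.Hall.Schmidt
import Cfsg.Agent.Lib.Core.Batch3
import Cfsg.Agent.Lib.Core.Subnormal

/-!
# Wielandt's theorem on nilpotent Hall subgroups
-/

set_option autoImplicit false

namespace Cfsg.Agent.Lib.Hall

open Cfsg Subgroup Cfsg.Agent.Lib.Core
open scoped Pointwise commutatorElement

universe u

/-- **Wielandt's theorem**: a nilpotent Hall subgroup contains a conjugate of every subgroup all of
whose prime divisors divide its order. -/
theorem wielandt_nilpotent_hall : ∀ (n : ℕ) (G : Type u) [Group G] [Finite G], Nat.card G = n →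
    ∀ (H : Subgroup G), Group.IsNilpotent H → (Nat.card H).Coprime H.index → ∀ K : Subgroup G,
      (∀ p : ℕ, p.Prime → p ∣ Nat.card K → p ∣ Nat.card H) → ∃ x : G, K ≤ MulAut.conj x • H := by
  intro n
  induction n using Nat.strong_induction_on with
  | _ n ih =>
    intro G _ _ hn H hH hcop K hK'
    refine (?_ : ∀ (c : ℕ) (K : Subgroup G), Nat.card K = c →
      (∀ p : ℕ, p.Prime → p ∣ Nat.card K → p ∣ Nat.card H) → ∃ x : G, K ≤ MulAut.conj x • H) _ K rfl hK'
    clear K hK'
    intro c
    induction c using Nat.strong_induction_on with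
    | _ c ihk =>
      intro K hk hK
      by_cases hKb : K = ⊥
      · exact ⟨1, by rw [hKb]; exact bot_le⟩
      have hnilconj : ∀ x : G, Group.IsNilpotent (MulAut.conj x • H : Subgroup G) := fun x =>
        Group.nilpotent_of_mulEquiv (Subgroup.equivSMul (MulAut.conj x) H)
      have hsolv : Group.IsSolvable K := by
        refine isSolvable_of_coatoms_nilpotent _ K rfl fun M hM => ?_
        let M' : Subgroup G := M.map K.subtype
        have hM'c : Nat.card M' = Nat.card M := Subgroup.card_map_of_injective K.subtype_injective
        have hlt : Nat.card M' < c := by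
          rw [hM'c, ← hk]
          exact card_subgroup_lt (lt_top_iff_ne_top.mpr hM.1)
        obtain ⟨x, hx⟩ := ihk _ hlt M' rfl (fun p hp hd => hK p hp (by
          rw [hM'c] at hd
          exact hd.trans (Subgroup.card_subgroup_dvd_card M)))
        have hx' := hnilconj x
        refine isNilpotent_of_injective ((K.subtype.comp M.subtype).codRestrict
          (MulAut.conj x • H : Subgroup G) (fun m => hx (Subgroup.mem_map_of_mem _ m.2))) ?_
        intro a b hab
        have h := congrArg Subtype.val hab
        exact Subtype.ext (Subtype.ext h)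
      have hnt : Nontrivial K := by
        by_contra h1
        rw [not_nontrivial_iff_subsingleton] at h1
        apply hKb
        rw [eq_bot_iff]
        intro x hx
        have := Subsingleton.elim (⟨x, hx⟩ : K) 1
        rw [Subgroup.mem_bot]
        exact congrArg Subtype.val this
      obtain ⟨N₀, q, hN₀n, hN₀1, hq, hN₀p⟩ := exists_normal_prime_group K
      have hqf : Fact q.Prime := ⟨hq⟩
      let Q₁ : Subgroup G := N₀.map K.subtype
      have hQ₁p : IsPGroup q Q₁ := hN₀p.map _
      have hqN₀ : q ∣ Nat.card N₀ := by
        obtain ⟨k, hk'⟩ := IsPGroup.iff_card.mp hN₀p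
        rw [hk']
        refine dvd_pow_self q ?_
        rintro rfl
        exact hN₀1 (Subgroup.eq_bot_of_card_eq N₀ (by rw [hk', pow_zero]))
      have hqK : q ∣ Nat.card K := hqN₀.trans (Subgroup.card_subgroup_dvd_card N₀)
      have hqH := hK q hq hqK
      have hqHi : ¬ q ∣ H.index := fun h1 =>
        hq.one_lt.ne' (Nat.eq_one_of_dvd_coprimes hcop hqH h1)
      obtain ⟨P, T, hparts⟩ := exists_nilParts q H hH
      have hPidx0 : P.index = H.index * Nat.card T := by
        have h1 := P.card_mul_index
        have h2 := H.card_mul_index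
        rw [hparts.card_eq] at h2
        rw [← h2] at h1
        have h3 : Nat.card P * P.index = Nat.card P * (H.index * Nat.card T) := by
          rw [h1]
          ring
        exact Nat.eq_of_mul_eq_mul_left Nat.card_pos h3
      have hPidx : ¬ q ∣ P.index := by
        rw [hPidx0]
        intro h1
        exact (hq.dvd_mul.mp h1).elim hqHi hparts.not_dvd
      let N : Subgroup G := normalizer (Q₁ : Set G)
      have hKN : K ≤ N := by
        intro k hk'
        apply mem_normalizer_fintype
        rintro _ ⟨m, hm, rfl⟩
        exact ⟨⟨k, hk'⟩ * m * ⟨k, hk'⟩⁻¹, hN₀n.conj_mem m hm _, rfl⟩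
      obtain ⟨S₁⟩ : Nonempty (Sylow q N) := inferInstance
      let S : Subgroup G := (S₁ : Subgroup N).map N.subtype
      have hS : IsPGroup q S := S₁.isPGroup'.map _
      have hSN : S ≤ N := by
        rintro _ ⟨x, -, rfl⟩
        exact x.2
      obtain ⟨g₀, hg₀⟩ := exists_conj_le_of_not_dvd_index hS hPidx
      let g : G := g₀⁻¹
      have hSP : S ≤ MulAut.conj g • P := by
        have h1 := conj_smul_le_conj_smul (g := g₀⁻¹) hg₀
        rwa [conj_inv_smul_conj_smul] at h1
      let H₀ : Subgroup G := MulAut.conj g • H
      let P₀ : Subgroup G := MulAut.conj g • P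
      let T₀ : Subgroup G := MulAut.conj g • T
      have hparts₀ : NilParts q H₀ P₀ T₀ := hparts.conj g
      have hH₀nil : Group.IsNilpotent H₀ := hnilconj g
      have hQS : Q₁ ≤ S := by
        have h1 : Q₁.subgroupOf N ≤ (S₁ : Subgroup N) := by
          have hnorm : (Q₁.subgroupOf N).Normal := Subgroup.normal_in_normalizer
          have hp : IsPGroup q (Q₁.subgroupOf N) :=
            hQ₁p.of_equiv (Subgroup.subgroupOfEquivOfLe Subgroup.le_normalizer).symm
          exact (le_pCore hnorm hp).trans (pCore_le_sylow S₁)
        intro x hx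
        exact ⟨⟨x, Subgroup.le_normalizer hx⟩, h1 hx, rfl⟩
      have hQP₀ : Q₁ ≤ P₀ := hQS.trans hSP
      have hT₀N : T₀ ≤ N := by
        intro t ht
        apply centralizer_le_normalizer'
        refine Subgroup.mem_centralizer_iff.mpr fun a ha => ?_
        exact (Subgroup.mem_centralizer_iff.mp (hparts₀.comm (hQP₀ ha)) t ht).symm
      have hT₀nil : Group.IsNilpotent T₀ :=
        isNilpotent_of_injective (Subgroup.inclusion hparts₀.le_right)
          (Subgroup.inclusion_injective _)
      let H₁ : Subgroup G := S ⊔ T₀
      have hparts₁ : NilParts q H₁ S T₀ := ⟨hS, hparts₀.not_dvd, fun x hx => hparts₀.comm (hSP hx), rfl⟩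
      have hH₁nil : Group.IsNilpotent H₁ := hparts₁.isNilpotent hT₀nil
      have hH₁N : H₁ ≤ N := sup_le hSN hT₀N
      have hH₁H₀ : H₁ ≤ H₀ := sup_le (hSP.trans hparts₀.le_left) hparts₀.le_right
      have hconjH : ∀ x : G, MulAut.conj x • H₀ = MulAut.conj (x * g) • H := fun x =>
        conj_smul_conj_smul x g H
      have hH₀card : Nat.card H₀ = Nat.card H := card_conj_smul g H
      have hH₀idx : H₀.index = H.index := index_conj_smul g H
      have hcop₀ : (Nat.card H₀).Coprime H₀.index := by
        rw [hH₀card, hH₀idx]
        exact hcop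
      by_cases hNt : N = ⊤
      · -- `Q₁` is normal in `G`
        have hQn : Q₁.Normal := Subgroup.normalizer_eq_top_iff.mp hNt
        have hQ₁1 : Q₁ ≠ ⊥ := by
          intro h1
          apply hN₀1
          exact (Subgroup.map_eq_bot_iff_of_injective _ K.subtype_injective).mp h1
        let π := QuotientGroup.mk' Q₁
        have hπ : Function.Surjective π := QuotientGroup.mk'_surjective Q₁
        have hQH₀ : Q₁ ≤ H₀ := hQP₀.trans hparts₀.le_left
        have hidx : (H₀.map π).index = H₀.index := by
          rw [Subgroup.index_map, QuotientGroup.ker_mk', sup_eq_left.mpr hQH₀,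
            MonoidHom.range_eq_top.mpr hπ, Subgroup.index_top, mul_one]
        have hcard : Nat.card (H₀.map π) ∣ Nat.card H₀ :=
          Subgroup.card_dvd_of_surjective (π.subgroupMap H₀) (π.subgroupMap_surjective H₀)
        have hnil' : Group.IsNilpotent (H₀.map π) :=
          Group.nilpotent_of_surjective _ (π.subgroupMap_surjective H₀)
        have hcop' : (Nat.card (H₀.map π)).Coprime (H₀.map π).index := by
          rw [hidx]
          exact Nat.Coprime.coprime_dvd_left hcard hcop₀
        have hprime : ∀ p : ℕ, p.Prime → p ∣ Nat.card (K.map π) → p ∣ Nat.card (H₀.map π) := by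
          intro p hp hd
          have h1 : p ∣ Nat.card K := hd.trans
            (Subgroup.card_dvd_of_surjective (π.subgroupMap K) (π.subgroupMap_surjective K))
          have h2 : p ∣ Nat.card H₀ := by
            rw [hH₀card]
            exact hK p hp h1
          have h3 : ¬ p ∣ H₀.index := fun h4 =>
            hp.one_lt.ne' (Nat.eq_one_of_dvd_coprimes hcop₀ h2 h4)
          have h4 : p ∣ Nat.card (G ⧸ Q₁) := hd.trans (Subgroup.card_subgroup_dvd_card _)
          rw [← (H₀.map π).card_mul_index, hidx] at h4
          exact (hp.dvd_mul.mp h4).resolve_right h3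
        obtain ⟨xb, hxb⟩ := ih _ (hn ▸ card_quotient_lt hQ₁1) (G ⧸ Q₁) rfl (H₀.map π) hnil' hcop'
          (K.map π) hprime
        obtain ⟨x, rfl⟩ := hπ xb
        refine ⟨x * g, ?_⟩
        rw [← hconjH]
        intro k hk'
        have h1 : π k ∈ MulAut.conj (π x) • H₀.map π := hxb (Subgroup.mem_map_of_mem _ hk')
        rw [← map_conj_smul] at h1
        obtain ⟨y, hy, hyk⟩ := h1
        have h2 : y⁻¹ * k ∈ Q₁ := by
          rw [← QuotientGroup.eq_one_iff]
          change π (y⁻¹ * k) = 1
          rw [map_mul, map_inv, hyk, inv_mul_cancel]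
        have h3 : y⁻¹ * k ∈ MulAut.conj x • H₀ := by
          have h4 := conj_smul_le_conj_smul (g := x) hQH₀
          rw [conj_smul_eq_self_of_normal x Q₁] at h4
          exact h4 h2
        have h5 : k = y * (y⁻¹ * k) := by group
        rw [h5]
        exact Subgroup.mul_mem _ hy h3
      · -- `N` is a proper subgroup
        have hlt : Nat.card N < n := by
          rw [← hn]
          exact card_subgroup_lt (lt_top_iff_ne_top.mpr hNt)
        have hH₁card : Nat.card (H₁.subgroupOf N) = Nat.card H₁ :=
          Nat.card_congr (Subgroup.subgroupOfEquivOfLe hH₁N).toEquiv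
        have hKcard : Nat.card (K.subgroupOf N) = Nat.card K :=
          Nat.card_congr (Subgroup.subgroupOfEquivOfLe hKN).toEquiv
        have hnil' : Group.IsNilpotent (H₁.subgroupOf N) :=
          Group.nilpotent_of_mulEquiv (Subgroup.subgroupOfEquivOfLe hH₁N).symm
        have hSsub : S.subgroupOf N = S₁ := Subgroup.comap_map_eq_self_of_injective N.subtype_injective _
        have hcop' : (Nat.card (H₁.subgroupOf N)).Coprime (H₁.subgroupOf N).index := by
          rw [hH₁card]
          by_contra hne
          obtain ⟨r, hr, hr1, hr2⟩ := Nat.Prime.not_coprime_iff_dvd.mp hne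
          change r ∣ H₁.relIndex N at hr2
          rw [hparts₁.card_eq] at hr1
          rcases hr.dvd_mul.mp hr1 with h1 | h1
          · -- `r = q`
            obtain ⟨m, hm⟩ := IsPGroup.iff_card.mp hS
            rw [hm] at h1
            have h2 : r = q := (Nat.prime_dvd_prime_iff_eq hr hq).mp (hr.dvd_of_dvd_pow h1)
            subst h2
            have h3 : H₁.relIndex N ∣ S.relIndex N := Subgroup.relIndex_dvd_of_le_left N le_sup_left
            have h4 : S.relIndex N = (S₁ : Subgroup N).index := by
              rw [Subgroup.relIndex, hSsub]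
            rw [h4] at h3
            exact S₁.not_dvd_index (hr2.trans h3)
          · have hrq : r ≠ q := by
              rintro rfl
              exact hparts₀.not_dvd h1
            have h2 : H₁.relIndex N ∣ T₀.relIndex N := Subgroup.relIndex_dvd_of_le_left N le_sup_right
            have h3 : T₀.relIndex N ∣ T₀.index := Subgroup.relIndex_dvd_index_of_le hT₀N
            have h4 : T₀.index = H₀.index * Nat.card P₀ := by
              have h5 := T₀.card_mul_index
              have h6 := H₀.card_mul_index
              rw [hparts₀.card_eq] at h6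
              rw [← h6] at h5
              have h7 : Nat.card T₀ * T₀.index = Nat.card T₀ * (H₀.index * Nat.card P₀) := by
                rw [h5]
                ring
              exact Nat.eq_of_mul_eq_mul_left Nat.card_pos h7
            have h5 := hr2.trans (h2.trans h3)
            rw [h4] at h5
            rcases hr.dvd_mul.mp h5 with h6 | h6
            · have h7 : r ∣ Nat.card H₀ := h1.trans (Subgroup.card_dvd_of_le hparts₀.le_right)
              exact hr.one_lt.ne' (Nat.eq_one_of_dvd_coprimes hcop₀ h7 h6)
            · obtain ⟨m, hm⟩ := IsPGroup.iff_card.mp hparts₀.isP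
              rw [hm] at h6
              exact hrq ((Nat.prime_dvd_prime_iff_eq hr hq).mp (hr.dvd_of_dvd_pow h6))
        have hprime : ∀ p : ℕ, p.Prime → p ∣ Nat.card (K.subgroupOf N) → p ∣ Nat.card (H₁.subgroupOf N) := by
          intro p hp hd
          rw [hKcard] at hd
          rw [hH₁card]
          have h1 := hK p hp hd
          rw [hparts.card_eq] at h1
          rcases hp.dvd_mul.mp h1 with h2 | h2
          · obtain ⟨m, hm⟩ := IsPGroup.iff_card.mp hparts.isP
            rw [hm] at h2
            have h3 : p = q := (Nat.prime_dvd_prime_iff_eq hp hq).mp (hp.dvd_of_dvd_pow h2)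
            subst h3
            have h4 : p ∣ Nat.card N := hd.trans (Subgroup.card_dvd_of_le hKN)
            have h5 := S₁.dvd_card_of_dvd_card h4
            have h6 : Nat.card (S₁ : Subgroup N) = Nat.card S :=
              (Subgroup.card_map_of_injective N.subtype_injective).symm
            rw [h6] at h5
            exact h5.trans (Subgroup.card_dvd_of_le le_sup_left)
          · have h3 : Nat.card T₀ = Nat.card T := card_conj_smul g T
            rw [← h3] at h2
            exact h2.trans (Subgroup.card_dvd_of_le le_sup_right)
        obtain ⟨u, hu⟩ := ih _ hlt N rfl (H₁.subgroupOf N) hnil' hcop' (K.subgroupOf N) hprime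
        refine ⟨u * g, ?_⟩
        rw [← hconjH]
        have h1 := Subgroup.map_mono (f := N.subtype) hu
        rw [Subgroup.map_subgroupOf_eq_of_le hKN, map_subtype_conj_smul,
          Subgroup.map_subgroupOf_eq_of_le hH₁N] at h1
        exact h1.trans (conj_smul_le_conj_smul hH₁H₀)

end Cfsg.Agent.Lib.Hall
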