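import Mathlib
import Cfsg.Agent.Lib.Transfer.Package
import Cfsg.Agent.Lib.Hall.Wielandt
import Cfsg.Agent.Lib.Core.Product
import Cfsg.Agent.Lib.Core.Factor

/-!
# Normal complements from focal subgroups
-/

set_option autoImplicit false

namespace Cfsg.Agent.Lib.Hall

open Cfsg Subgroup Cfsg.Agent.Lib.Core
open scoped Pointwise commutatorElement

universe u

section

variable {G : Type*} [Group G]

theorem focal_mono {A B : Subgroup G} (h : A ≤ B) : A.focalSubgroup ≤ B.focalSubgroup := by
  rw [Subgroup.focalSubgroup_def, Subgroup.focalSubgroup_def]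
  apply Subgroup.closure_mono
  rintro g ⟨hg, x, hx, u, rfl⟩
  exact ⟨h hg, x, h hx, u, rfl⟩

theorem map_focal_le (N : Subgroup G) (A : Subgroup N) :
    (A.focalSubgroup).map N.subtype ≤ (A.map N.subtype).focalSubgroup := by
  rw [Subgroup.focalSubgroup_def, MonoidHom.map_closure]
  apply Subgroup.closure_mono
  rintro _ ⟨g, ⟨hg, x, hx, u, rfl⟩, rfl⟩
  exact ⟨Subgroup.mem_map_of_mem _ hg, x, Subgroup.mem_map_of_mem _ hx, u, by simp⟩

theorem map_iterate_focal_le (N F : Subgroup G) (k : ℕ) :
    (((fun K : Subgroup N => K.focalSubgroup)^[k] (F.subgroupOf N))).map N.subtype ≤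
      (fun K : Subgroup G => K.focalSubgroup)^[k] F := by
  induction k with
  | zero =>
    simp only [Function.iterate_zero, id]
    rintro _ ⟨x, hx, rfl⟩
    exact hx
  | succ k ih =>
    simp only [Function.iterate_succ_apply']
    exact (map_focal_le N _).trans (focal_mono ih)

/-- A normal Hall subgroup of a normal subgroup is normal. -/
theorem normal_of_hall_in_normal [Finite G] {N : Subgroup G} [hN : N.Normal] (M : Subgroup N) [hM : M.Normal]
    (h : (Nat.card M).Coprime M.index) : (M.map N.subtype).Normal := by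
  constructor
  rintro _ ⟨m, hm, rfl⟩ g
  have hy : g * (m : G) * g⁻¹ ∈ N := hN.conj_mem _ m.2 g
  let y : N := ⟨g * (m : G) * g⁻¹, hy⟩
  have hmp : m ^ Nat.card M = 1 := by
    have h1 := Subgroup.orderOf_dvd_natCard M hm
    exact orderOf_dvd_iff_pow_eq_one.mp h1
  have hyp : y ^ Nat.card M = 1 := by
    apply Subtype.ext
    change (g * (m : G) * g⁻¹) ^ Nat.card M = 1
    rw [conj_pow]
    have h2 : (m : G) ^ Nat.card M = 1 := by
      simpa using congrArg Subtype.val hmp
    rw [h2]
    group
  have h1 : orderOf (QuotientGroup.mk' M y) ∣ Nat.card M :=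
    orderOf_dvd_of_pow_eq_one (by rw [← map_pow, hyp, map_one])
  have h2 : orderOf (QuotientGroup.mk' M y) ∣ M.index := orderOf_dvd_natCard _
  have h3 := Nat.eq_one_of_dvd_coprimes h h1 h2
  rw [orderOf_eq_one_iff] at h3
  have h4 : y ∈ M := (QuotientGroup.eq_one_iff y).mp h3
  exact ⟨y, h4, rfl⟩

end

/-- A Hall subgroup whose iterated focal subgroups die has a normal complement. -/
theorem normal_complement_of_focal : ∀ (n : ℕ) (G : Type u) [Group G] [Finite G] (H : Subgroup G),
    (Nat.card H).Coprime H.index → (fun K : Subgroup G => K.focalSubgroup)^[n] H = ⊥ →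
    ∃ N : Subgroup G, N.Normal ∧ IsComplement' N H := by
  intro n
  induction n with
  | zero =>
    intro G _ _ H _ hfoc
    simp only [Function.iterate_zero, id] at hfoc
    subst hfoc
    exact ⟨⊤, inferInstance, Subgroup.isComplement'_top_bot⟩
  | succ n ih =>
    intro G _ _ H hcop hfoc
    rw [Function.iterate_succ_apply] at hfoc
    let D : Subgroup H := H.focalSubgroupOf
    have hDc : IsMulCommutative (H ⧸ D) := by
      refine ⟨⟨?_⟩⟩
      intro a b
      obtain ⟨x, rfl⟩ := QuotientGroup.mk'_surjective D a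
      obtain ⟨y, rfl⟩ := QuotientGroup.mk'_surjective D b
      have h1 : ⁅x, y⁆ ∈ D := Subgroup.commutator_le_focalSubgroupOf H
        (Subgroup.commutator_mem_commutator (Subgroup.mem_top x) (Subgroup.mem_top y))
      have h2 : QuotientGroup.mk' D ⁅x, y⁆ = 1 := (QuotientGroup.eq_one_iff _).mpr h1
      rw [commutatorElement_def] at h2
      simp only [map_mul, map_inv] at h2
      calc QuotientGroup.mk' D x * QuotientGroup.mk' D y
          = (QuotientGroup.mk' D x * QuotientGroup.mk' D y * (QuotientGroup.mk' D x)⁻¹ *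
              (QuotientGroup.mk' D y)⁻¹) * (QuotientGroup.mk' D y * QuotientGroup.mk' D x) := by group
        _ = QuotientGroup.mk' D y * QuotientGroup.mk' D x := by rw [h2, one_mul]
    have hcop' : (Nat.card (H ⧸ D)).Coprime H.index :=
      Nat.Coprime.coprime_dvd_left (Subgroup.card_quotient_dvd_card D) hcop
    have hstable : ∀ (x : H) (g : G) (hg : g⁻¹ * (x : G) * g ∈ H), x⁻¹ * ⟨g⁻¹ * (x : G) * g, hg⟩ ∈ D := by
      intro x g hg
      change _ ∈ (H.focalSubgroup).subgroupOf H
      rw [Subgroup.mem_subgroupOf]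
      apply Subgroup.subset_closure
      refine ⟨H.mul_mem (H.inv_mem x.2) hg, (x : G)⁻¹, H.inv_mem x.2, g⁻¹, ?_⟩
      simp [commutatorElement_def, mul_assoc]
    obtain ⟨f, -, -, hker, hsup⟩ := Cfsg.Agent.Lib.Transfer.transfer_package H D hcop' hstable
    let N : Subgroup G := f.ker
    have hNn : N.Normal := MonoidHom.normal_ker f
    have hNH : N ⊓ H = H.focalSubgroup := hker.trans (Subgroup.map_focalSubgroupOf H)
    let F : Subgroup G := H.focalSubgroup
    let F' : Subgroup N := F.subgroupOf N
    have hiter : (fun K : Subgroup N => K.focalSubgroup)^[n] F' = ⊥ := by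
      have h1 := map_iterate_focal_le N F n
      change _ ≤ (fun K : Subgroup G => K.focalSubgroup)^[n] H.focalSubgroup at h1
      rw [hfoc] at h1
      exact (Subgroup.map_eq_bot_iff_of_injective _ N.subtype_injective).mp (le_bot_iff.mp h1)
    have hrel : H.relIndex N = H.index := by
      apply relIndex_eq_index_of_mul
      intro g
      have hg : g ∈ H ⊔ N := by
        rw [sup_comm, hsup]
        trivial
      exact exists_mul_of_mem_sup_normal_right hg
    have hF'idx : F'.index = H.index := by
      change F.relIndex N = H.index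
      rw [← hrel]
      change (H.focalSubgroup).relIndex N = _
      rw [← hNH]
      exact Subgroup.inf_relIndex_left _ _
    have hF'card : Nat.card F' ∣ Nat.card H := by
      have h1 : Nat.card F' ∣ Nat.card F := by
        have h2 : Nat.card F' = Nat.card ↥(F'.map N.subtype) :=
          (Subgroup.card_map_of_injective N.subtype_injective).symm
        rw [h2, Subgroup.subgroupOf_map_subtype]
        exact Subgroup.card_dvd_of_le inf_le_left
      exact h1.trans (Subgroup.card_dvd_of_le (Subgroup.focalSubgroup_le H))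
    have hcopF : (Nat.card F').Coprime F'.index := by
      rw [hF'idx]
      exact Nat.Coprime.coprime_dvd_left hF'card hcop
    obtain ⟨M, hMn, hMc⟩ := ih N F' hcopF hiter
    have hMcard : Nat.card M = H.index := by
      rw [← hF'idx, hMc.index_eq_card]
    have hMidx : M.index = Nat.card F' := hMc.symm.index_eq_card
    have hcopM : (Nat.card M).Coprime M.index := by
      rw [hMcard, hMidx, ← hF'idx]
      exact hcopF.symm
    refine ⟨M.map N.subtype, normal_of_hall_in_normal M hcopM, ?_⟩
    have hM'card : Nat.card (M.map N.subtype) = H.index := by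
      rw [Subgroup.card_map_of_injective N.subtype_injective, hMcard]
    apply Subgroup.isComplement'_of_coprime
    · rw [hM'card, mul_comm]
      exact H.card_mul_index
    · rw [hM'card]
      exact hcop.symm

section Control

variable {G : Type u} [Group G] [Finite G]

/-- Conjugation by an element of `H` preserves commutators with `H`. -/
theorem conj_smul_commutator_eq {Γ H : Subgroup G} (hΓ : H ≤ normalizer (Γ : Set G)) {b : G} (hb : b ∈ H) :
    MulAut.conj b • ⁅Γ, H⁆ = ⁅Γ, H⁆ := by
  rw [conj_smul_eq_map, Subgroup.map_commutator, ← conj_smul_eq_map, ← conj_smul_eq_map,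
    conj_smul_eq_self_of_mem_normalizer (hΓ hb), Cfsg.Agent.Lib.Core.conj_smul_eq_self_of_mem hb]

/-- The control-of-fusion hypothesis gives `foc(Γ) ≤ [Γ, H]`. -/
theorem focal_le_commutator_of_control {Γ H : Subgroup G} (hΓH : Γ ≤ H) (hΓ : H ≤ normalizer (Γ : Set G))
    (hctrl : ∀ (p : ℕ), p.Prime → ∀ x ∈ H, (∃ k, x ^ p ^ k = 1) → ∀ u : G, u * x * u⁻¹ ∈ H →
      ∃ v ∈ H, v * x * v⁻¹ = u * x * u⁻¹) :
    Γ.focalSubgroup ≤ ⁅Γ, H⁆ := by
  have key : ∀ n : ℕ, ∀ x ∈ Γ, orderOf x = n → ∀ u : G, u * x * u⁻¹ ∈ Γ → x⁻¹ * (u * x * u⁻¹) ∈ ⁅Γ, H⁆ := by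
    intro n
    induction n using Nat.strong_induction_on with
    | _ n ih =>
      intro x hx hxn u hu
      by_cases hn1 : n = 1
      · rw [hn1, orderOf_eq_one_iff] at hxn
        subst hxn
        simp
      let p := n.minFac
      have hp : p.Prime := Nat.minFac_prime hn1
      have hpd : p ∣ n := Nat.minFac_dvd n
      obtain ⟨a, b, hab, hcom, ⟨k, hak⟩, hbo, haz, hbz⟩ := Cfsg.Agent.Lib.Transfer.exists_parts hp x
      by_cases hb1 : b = 1
      · have hxa : x = a := by rw [hab, hb1, mul_one]
        obtain ⟨v, hv, hvx⟩ := hctrl p hp x (hΓH hx) ⟨k, by rw [hxa]; exact hak⟩ u (hΓH hu)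
        rw [← hvx]
        have h1 : x⁻¹ * (v * x * v⁻¹) = ⁅x⁻¹, v⁆ := by
          simp [commutatorElement_def, mul_assoc]
        rw [h1]
        exact Subgroup.commutator_mem_commutator (Γ.inv_mem hx) hv
      · have haΓ : a ∈ Γ := by
          have : zpowers x ≤ Γ := by
            rw [Subgroup.zpowers_le]
            exact hx
          exact this haz
        have hbΓ : b ∈ Γ := by
          have : zpowers x ≤ Γ := by
            rw [Subgroup.zpowers_le]
            exact hx
          exact this hbz
        have huz : ∀ y ∈ zpowers x, u * y * u⁻¹ ∈ Γ := by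
          intro y hy
          obtain ⟨i, rfl⟩ := Subgroup.mem_zpowers_iff.mp hy
          rw [← conj_zpow]
          exact Γ.zpow_mem hu i
        have hcop : (orderOf a).Coprime (orderOf b) := by
          have h1 : orderOf a ∣ p ^ k := orderOf_dvd_of_pow_eq_one hak
          exact Nat.Coprime.coprime_dvd_left h1 (Nat.Coprime.pow_left _ hbo.symm)
        have hmul : orderOf x = orderOf a * orderOf b := by
          rw [hab]
          exact (show Commute a b from hcom).orderOf_mul_eq_mul_orderOf_of_coprime hcop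
        have hn0 : 0 < n := by rw [← hxn]; exact orderOf_pos x
        have hbo1 : orderOf b ≠ 1 := fun h => hb1 (orderOf_eq_one_iff.mp h)
        have hao1 : orderOf a ≠ 1 := by
          intro h
          rw [h, one_mul, hxn] at hmul
          rw [hmul] at hpd
          have : p ∣ 1 := by
            have h3 := Nat.Coprime.eq_one_of_dvd hbo.symm hpd
            rw [h3]
          exact hp.one_lt.ne' (Nat.dvd_one.mp this)
        have hap : 0 < orderOf a := orderOf_pos a
        have hbp : 0 < orderOf b := orderOf_pos b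
        have hlta : orderOf a < n := by
          rw [← hxn, hmul]
          exact lt_mul_of_one_lt_right hap (by omega)
        have hltb : orderOf b < n := by
          rw [← hxn, hmul]
          exact lt_mul_of_one_lt_left hbp (by omega)
        have h1 := ih _ hlta a haΓ rfl u (huz a haz)
        have h2 := ih _ hltb b hbΓ rfl u (huz b hbz)
        have h3 : b⁻¹ * (a⁻¹ * (u * a * u⁻¹)) * b ∈ ⁅Γ, H⁆ := by
          have h4 := conj_mem_conj_smul (g := b⁻¹) h1
          rw [conj_smul_commutator_eq hΓ (H.inv_mem (hΓH hbΓ))] at h4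
          simpa using h4
        have h5 : x⁻¹ * (u * x * u⁻¹) = (b⁻¹ * (a⁻¹ * (u * a * u⁻¹)) * b) * (b⁻¹ * (u * b * u⁻¹)) := by
          rw [hab]
          group
        rw [h5]
        exact Subgroup.mul_mem _ h3 h2
  rw [Subgroup.focalSubgroup_def, Subgroup.closure_le]
  rintro g ⟨hg, x, hx, u, rfl⟩
  have h1 : u * x⁻¹ * u⁻¹ ∈ Γ := by
    have h2 : u * x⁻¹ * u⁻¹ = x⁻¹ * ⁅x, u⁆ := by
      simp [commutatorElement_def, mul_assoc]
    rw [h2]
    exact Γ.mul_mem (Γ.inv_mem hx) hg
  have h3 := key _ x⁻¹ (Γ.inv_mem hx) rfl u h1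
  have h4 : x⁻¹⁻¹ * (u * x⁻¹ * u⁻¹) = ⁅x, u⁆ := by
    simp [commutatorElement_def, mul_assoc]
  rw [h4] at h3
  exact h3

theorem lowerCentralSeries_le_self (H : Subgroup G) (i : ℕ) : H.lowerCentralSeries i ≤ H := by
  induction i with
  | zero => exact le_rfl
  | succ i ih =>
    rw [Subgroup.lowerCentralSeries_succ, Subgroup.commutator_le]
    intro g hg h hh
    have hg' := ih hg
    rw [commutatorElement_def]
    exact H.mul_mem (H.mul_mem (H.mul_mem hg' hh) (H.inv_mem hg')) (H.inv_mem hh)

/-- Iterated focal subgroups of a nilpotent subgroup with control of fusion. -/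
theorem iterate_focal_le {H : Subgroup G}
    (hctrl : ∀ (p : ℕ), p.Prime → ∀ x ∈ H, (∃ k, x ^ p ^ k = 1) → ∀ u : G, u * x * u⁻¹ ∈ H →
      ∃ v ∈ H, v * x * v⁻¹ = u * x * u⁻¹) (i : ℕ) :
    (fun K : Subgroup G => K.focalSubgroup)^[i] H ≤ H.lowerCentralSeries i := by
  induction i with
  | zero => exact le_rfl
  | succ i ih =>
    rw [Function.iterate_succ_apply', Subgroup.lowerCentralSeries_succ]
    exact (focal_mono ih).trans (focal_le_commutator_of_control (lowerCentralSeries_le_self H i)
      (Subgroup.self_le_normalizer_lowerCentralSeries H i) hctrl)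

/-- **Sylow normalizers and normal complements.** -/
theorem normal_complement_of_sylow_normalizers (H : Subgroup G)
    (hnot : ∀ p : ℕ, p.Prime → ∀ P : Sylow p G, (P : Subgroup G) ≠ H)
    (hnorm : ∀ p : ℕ, p.Prime → p ∣ Nat.card H → ∀ P : Sylow p H,
      normalizer (((P : Subgroup H).map H.subtype : Subgroup G) : Set G) = H) :
    ∃ N : Subgroup G, N.Normal ∧ IsComplement' N H := by
  classical
  by_cases hHb : H = ⊥
  · subst hHb
    exact ⟨⊤, inferInstance, Subgroup.isComplement'_top_bot⟩
  -- Sylow subgroups of `H` are Sylow in `G`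
  have hSyl : ∀ (r : ℕ) [Fact r.Prime], r ∣ Nat.card H → ∀ P₀ : Sylow r H, ∃ S₀ : Sylow r G,
      (S₀ : Subgroup G) = (P₀ : Subgroup H).map H.subtype := by
    intro r hrf hr P₀
    have hP' : IsPGroup r ((P₀ : Subgroup H).map H.subtype) := P₀.isPGroup'.map _
    obtain ⟨S₀, hS₀⟩ := hP'.exists_le_sylow
    refine ⟨S₀, ?_⟩
    by_contra hne
    have hlt : (P₀ : Subgroup H).map H.subtype < S₀ := lt_of_le_of_ne hS₀ (Ne.symm hne)
    obtain ⟨x, hxS, hxP, hxN⟩ := exists_mem_normalizer_of_lt_nilpotent hlt S₀.isPGroup'.isNilpotent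
    rw [hnorm r hrf.out hr P₀] at hxN
    have hX : IsPGroup r ((S₀ : Subgroup G).subgroupOf H) := by
      intro y
      obtain ⟨k, hk⟩ := S₀.isPGroup' ⟨(y : H), y.2⟩
      refine ⟨k, ?_⟩
      apply Subtype.ext
      apply Subtype.ext
      simpa using congrArg Subtype.val hk
    have hle : (P₀ : Subgroup H) ≤ (S₀ : Subgroup G).subgroupOf H := by
      intro y hy
      exact hS₀ ⟨y, hy, rfl⟩
    have heq := P₀.3 hX hle
    have hmem : (⟨x, hxN⟩ : H) ∈ (S₀ : Subgroup G).subgroupOf H := hxS
    rw [heq] at hmem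
    exact hxP ⟨⟨x, hxN⟩, hmem, rfl⟩
  -- `H` is a Hall subgroup
  have hHall : (Nat.card H).Coprime H.index := by
    by_contra hne
    obtain ⟨r, hr, hr1, hr2⟩ := Nat.Prime.not_coprime_iff_dvd.mp hne
    have hrf : Fact r.Prime := ⟨hr⟩
    obtain ⟨P₀⟩ : Nonempty (Sylow r H) := inferInstance
    obtain ⟨S₀, hS₀⟩ := hSyl r hr1 P₀
    have hle : (S₀ : Subgroup G) ≤ H := by
      rw [hS₀]
      exact Subgroup.map_subtype_le _
    exact S₀.not_dvd_index (hr2.trans (Subgroup.index_dvd_of_le hle))
  -- `H` is nilpotent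
  have hHnil : Group.IsNilpotent H := by
    refine ((Group.isNilpotent_of_finite_tfae (G := H)).out 0 3).mpr ?_
    intro r hrf P₀
    by_cases hr : r ∣ Nat.card H
    · have h1 : H ≤ normalizer (((P₀ : Subgroup H).map H.subtype : Subgroup G) : Set G) := by
        rw [hnorm r hrf.out hr P₀]
      have h2 := (Subgroup.normal_subgroupOf_iff_le_normalizer (Subgroup.map_subtype_le _)).mpr h1
      rwa [show ((P₀ : Subgroup H).map H.subtype).subgroupOf H = P₀ from
        Subgroup.comap_map_eq_self_of_injective H.subtype_injective _] at h2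
    · have h1 : (P₀ : Subgroup H) = ⊥ := by
        apply Subgroup.eq_bot_of_card_eq
        obtain ⟨k, hk⟩ := IsPGroup.iff_card.mp P₀.isPGroup'
        have h2 : Nat.card (P₀ : Subgroup H) ∣ Nat.card H := Subgroup.card_subgroup_dvd_card _
        rw [hk] at h2 ⊢
        cases k with
        | zero => simp
        | succ k => exact absurd ((dvd_pow_self r (Nat.succ_ne_zero k)).trans h2) hr
      rw [h1]
      infer_instance
  -- control of fusion
  have hctrl : ∀ (p : ℕ), p.Prime → ∀ x ∈ H, (∃ k, x ^ p ^ k = 1) → ∀ u : G, u * x * u⁻¹ ∈ H →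
      ∃ v ∈ H, v * x * v⁻¹ = u * x * u⁻¹ := by
    intro p hp x hxH ⟨k, hxk⟩ u hyH
    by_cases hx1 : x = 1
    · exact ⟨1, H.one_mem, by simp [hx1]⟩
    have hpf : Fact p.Prime := ⟨hp⟩
    have hzpow : ∀ w : G, w ^ p ^ k = 1 → IsPGroup p (zpowers w) := by
      rintro w hw ⟨z, hz⟩
      obtain ⟨i, rfl⟩ := Subgroup.mem_zpowers_iff.mp hz
      refine ⟨k, ?_⟩
      apply Subtype.ext
      change (w ^ i) ^ p ^ k = 1
      rw [← zpow_natCast, ← zpow_mul, mul_comm, zpow_mul, zpow_natCast, hw, one_zpow]
    have hpH : p ∣ Nat.card H := by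
      have h1 : orderOf x ∣ p ^ k := orderOf_dvd_of_pow_eq_one hxk
      obtain ⟨j, -, hj⟩ := (Nat.dvd_prime_pow hp).mp h1
      have h2 : j ≠ 0 := by
        rintro rfl
        rw [pow_zero, orderOf_eq_one_iff] at hj
        exact hx1 hj
      have h3 : p ∣ orderOf x := by
        rw [hj]
        exact dvd_pow_self p h2
      exact h3.trans (Subgroup.orderOf_dvd_natCard H hxH)
    obtain ⟨P, R, hparts⟩ := exists_nilParts p H hHnil
    have hmemP : ∀ w ∈ H, w ^ p ^ k = 1 → w ∈ P := by
      intro w hw hw1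
      refine hparts.le_left_of (X := zpowers w) ?_ (hzpow w hw1) (Subgroup.mem_zpowers w)
      rw [Subgroup.zpowers_le]
      exact hw
    have hxP := hmemP x hxH hxk
    have hy1 : (u * x * u⁻¹) ^ p ^ k = 1 := by
      rw [conj_pow, hxk]
      group
    have hyP := hmemP _ hyH hy1
    have hR1 : R ≠ ⊥ := by
      intro hR
      subst hR
      have h1 : P = H := by
        have := hparts.sup
        rwa [sup_bot_eq] at this
      subst h1
      obtain ⟨P₀⟩ : Nonempty (Sylow p P) := inferInstance
      have htop : IsPGroup p (⊤ : Subgroup P) := hparts.isP.of_equiv (Subgroup.topEquiv (G := P)).symm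
      have h2 : (⊤ : Subgroup P) = P₀ := P₀.3 htop le_top
      obtain ⟨S₀, hS₀⟩ := hSyl p hpH P₀
      apply hnot p hp S₀
      rw [hS₀, ← h2, ← MonoidHom.range_eq_map, Subgroup.range_subtype]
    have hR2 : Nat.card R ≠ 1 := fun h => hR1 (Subgroup.eq_bot_of_card_eq R h)
    let q := (Nat.card R).minFac
    have hq : q.Prime := Nat.minFac_prime hR2
    have hqf : Fact q.Prime := ⟨hq⟩
    have hqR : q ∣ Nat.card R := Nat.minFac_dvd _
    have hqp : q ≠ p := by
      intro h
      apply hparts.not_dvd
      rw [← h]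
      exact hqR
    have hRH : Nat.card R ∣ Nat.card H := Subgroup.card_dvd_of_le hparts.le_right
    have hqH : q ∣ Nat.card H := hqR.trans hRH
    obtain ⟨Q₀⟩ : Nonempty (Sylow q H) := inferInstance
    let Q' : Subgroup G := (Q₀ : Subgroup H).map H.subtype
    have hQ'p : IsPGroup q Q' := Q₀.isPGroup'.map _
    have hQ'H : Q' ≤ H := Subgroup.map_subtype_le _
    have hQ'R : Q' ≤ R := by
      apply hparts.le_right_of hQ'H
      intro h1
      obtain ⟨m, hm⟩ := IsPGroup.iff_card.mp hQ'p
      rw [hm] at h1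
      exact hqp ((Nat.prime_dvd_prime_iff_eq hp hq).mp (hp.dvd_of_dvd_pow h1)).symm
    have hQ₀n : (Q₀ : Subgroup H).Normal := by
      have h0 : ∀ (p : ℕ) (_hp : Fact p.Prime) (P : Sylow p H), (↑P : Subgroup H).Normal :=
        ((Group.isNilpotent_of_finite_tfae (G := H)).out 0 3).mp hHnil
      exact h0 q hqf Q₀
    have huniq : ∀ X : Subgroup G, X ≤ H → IsPGroup q X → X ≤ Q' := by
      intro X hXH hXp z hz
      have h1 : IsPGroup q (X.subgroupOf H) :=
        hXp.of_equiv (Subgroup.subgroupOfEquivOfLe hXH).symm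
      obtain ⟨S, hS⟩ := h1.exists_le_sylow
      have hu' := Sylow.unique_of_normal Q₀ hQ₀n
      rw [Subsingleton.elim S Q₀] at hS
      have h2 : (⟨z, hXH hz⟩ : H) ∈ X.subgroupOf H := hz
      exact ⟨⟨z, hXH hz⟩, hS h2, rfl⟩
    let y : G := u * x * u⁻¹
    let C : Subgroup G := centralizer ({y} : Set G)
    have hRC : R ≤ C := by
      intro r hr
      refine Subgroup.mem_centralizer_iff.mpr ?_
      rintro _ rfl
      exact (Subgroup.mem_centralizer_iff.mp (hparts.comm hyP) r hr).symm
    have hRuC : MulAut.conj u • R ≤ C := by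
      intro t ht
      refine Subgroup.mem_centralizer_iff.mpr ?_
      rintro _ rfl
      rw [mem_conj_smul_iff] at ht
      have h1 := Subgroup.mem_centralizer_iff.mp (hparts.comm hxP) _ ht
      have h2 : t = u * (u⁻¹ * t * u) * u⁻¹ := by group
      rw [h2]
      change u * x * u⁻¹ * (u * (u⁻¹ * t * u) * u⁻¹) = u * (u⁻¹ * t * u) * u⁻¹ * (u * x * u⁻¹)
      calc u * x * u⁻¹ * (u * (u⁻¹ * t * u) * u⁻¹) = u * (x * (u⁻¹ * t * u)) * u⁻¹ := by group
        _ = u * ((u⁻¹ * t * u) * x) * u⁻¹ := by rw [h1]
        _ = u * (u⁻¹ * t * u) * u⁻¹ * (u * x * u⁻¹) := by group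
    have hRnil : Group.IsNilpotent R :=
      isNilpotent_of_injective (Subgroup.inclusion hparts.le_right) (Subgroup.inclusion_injective _)
    let R' : Subgroup C := R.subgroupOf C
    let K' : Subgroup C := (MulAut.conj u • R).subgroupOf C
    have hR'card : Nat.card R' = Nat.card R := Nat.card_congr (Subgroup.subgroupOfEquivOfLe hRC).toEquiv
    have hK'card : Nat.card K' = Nat.card R :=
      (Nat.card_congr (Subgroup.subgroupOfEquivOfLe hRuC).toEquiv).trans (card_conj_smul u R)
    have hRidx : R.index = H.index * Nat.card P := by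
      have h5 := R.card_mul_index
      have h6 := H.card_mul_index
      rw [hparts.card_eq] at h6
      rw [← h6] at h5
      have h7 : Nat.card R * R.index = Nat.card R * (H.index * Nat.card P) := by
        rw [h5]
        ring
      exact Nat.eq_of_mul_eq_mul_left Nat.card_pos h7
    have hcop' : (Nat.card R').Coprime R'.index := by
      rw [hR'card]
      have h1 : R'.index ∣ R.index := Subgroup.relIndex_dvd_index_of_le hRC
      refine Nat.Coprime.coprime_dvd_right h1 ?_
      rw [hRidx]
      apply Nat.Coprime.mul_right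
      · exact Nat.Coprime.coprime_dvd_left hRH hHall
      · obtain ⟨m, hm⟩ := IsPGroup.iff_card.mp hparts.isP
        rw [hm]
        exact Nat.Coprime.pow_right _ ((Nat.Prime.coprime_iff_not_dvd hp).mpr hparts.not_dvd).symm
    obtain ⟨c, hc⟩ := wielandt_nilpotent_hall _ C rfl R'
      (Group.nilpotent_of_mulEquiv (Subgroup.subgroupOfEquivOfLe hRC).symm) hcop' K'
      (fun r _ hd => by rw [hK'card] at hd; rw [hR'card]; exact hd)
    have hle := Subgroup.map_mono (f := C.subtype) hc
    rw [Subgroup.map_subgroupOf_eq_of_le hRuC, map_subtype_conj_smul,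
      Subgroup.map_subgroupOf_eq_of_le hRC] at hle
    have heq : MulAut.conj u • R = MulAut.conj (c : G) • R :=
      Subgroup.eq_of_le_of_card_ge hle (by rw [card_conj_smul, card_conj_smul])
    let v : G := (c : G)⁻¹ * u
    have hvR : MulAut.conj v • R = R := by
      change MulAut.conj ((c : G)⁻¹ * u) • R = R
      rw [← conj_smul_conj_smul, heq, conj_inv_smul_conj_smul]
    have hvQ : MulAut.conj v • Q' ≤ Q' := by
      apply huniq
      · have := conj_smul_le_conj_smul (g := v) hQ'R
        rw [hvR] at this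
        exact this.trans hparts.le_right
      · exact hQ'p.map _
    have heqQ : MulAut.conj v • Q' = Q' :=
      Subgroup.eq_of_le_of_card_ge hvQ (by rw [card_conj_smul])
    have hvH : v ∈ H := by
      have h1 := mem_normalizer_of_conj_smul_eq heqQ
      rwa [hnorm q hq hqH Q₀] at h1
    refine ⟨v, hvH, ?_⟩
    have hcy : y * (c : G) = (c : G) * y := Subgroup.mem_centralizer_iff.mp c.2 y rfl
    calc v * x * v⁻¹ = (c : G)⁻¹ * y * (c : G) := by
          change (c : G)⁻¹ * u * x * ((c : G)⁻¹ * u)⁻¹ = (c : G)⁻¹ * (u * x * u⁻¹) * (c : G)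
          group
      _ = y := by
          rw [mul_assoc, hcy]
          group
  obtain ⟨n, hn⟩ := (Subgroup.isNilpotent_iff_lowerCentralSeries H).mp hHnil
  exact normal_complement_of_focal n G H hHall (le_bot_iff.mp (hn ▸ iterate_focal_le hctrl n))

end Control

end Cfsg.Agent.Lib.Hall
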