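import Mathlib
import Cfsg.Agent.Lib.Core.Conj
import Cfsg.Agent.Lib.Core.Subnormal
import Cfsg.Agent.Lib.Core.Factor
import Cfsg.Agent.Lib.PGroup.Basic
import Cfsg.Agent.Lib.Hall.CoprimeCommutator
import Cfsg.Agent.Lib.Hall.CoprimeLemmas
import Cfsg.Agent.Lib.Hall.CoprimeSylow
import Cfsg.Agent.Lib.Hall.Norm

/-!
# Coprime action with fixed points of prime index
-/

set_option autoImplicit false

namespace Cfsg.Agent.Lib.Hall

open Cfsg Subgroup Cfsg.Agent.Lib.Core
open scoped Pointwise commutatorElement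

variable {G : Type*} [Group G] [Finite G]

/-- Under coprime action, if `C_K(A)` has prime index `p` in `K`, then `|[K,A]| = p`. -/
theorem card_commutator_of_prime_index (A K : Subgroup G) (hAK : A ≤ normalizer (K : Set G))
    (hcop : (Nat.card A).Coprime (Nat.card K)) (hsolv : Group.IsSolvable A ∨ Group.IsSolvable K)
    (p : ℕ) (hp : p.Prime) (hidx : (K ⊓ centralizer (A : Set G)).relIndex K = p) :
    Nat.card (⁅K, A⁆ : Subgroup G) = p := by
  have hfact : Fact p.Prime := ⟨hp⟩
  let C : Subgroup G := K ⊓ centralizer (A : Set G)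
  have hCK : C ≤ K := inf_le_left
  have hcard : Nat.card K = Nat.card C * p := by
    have h1 := relIndex_mul_card_inf C K
    have h2 : C ⊓ K = C := inf_eq_left.mpr hCK
    rw [h2, hidx] at h1
    rw [← h1, mul_comm]
  -- a Sylow subgroup of `C_K(A)`
  let P₀' : Sylow p C := default
  let P₀ : Subgroup G := (P₀' : Subgroup C).map C.subtype
  have hP₀C : P₀ ≤ C := Subgroup.map_subtype_le _
  have hP₀p : IsPGroup p P₀ := (P₀'.isPGroup').map C.subtype
  have hP₀card : Nat.card P₀ = Nat.card P₀' :=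
    (Nat.card_congr ((P₀' : Subgroup C).equivMapOfInjective C.subtype C.subtype_injective).toEquiv).symm
  have hAcentP₀ : A ≤ centralizer (P₀ : Set G) := by
    rw [Subgroup.le_centralizer_iff]
    exact hP₀C.trans inf_le_right
  have hP₀A : A ≤ normalizer (P₀ : Set G) := fun a ha => mem_normalizer_of_mem_centralizer (hAcentP₀ ha)
  obtain ⟨Q, hQ1, hQ2⟩ := exists_invariant_sylow_le A K hAK hcop hsolv p P₀ (hP₀C.trans hCK) hP₀p hP₀A
  let P : Subgroup G := (Q : Subgroup K).map K.subtype
  have hPK : P ≤ K := Subgroup.map_subtype_le _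
  have hPp : IsPGroup p P := (Q.isPGroup').map K.subtype
  have hPcard' : Nat.card P = Nat.card Q :=
    (Nat.card_congr ((Q : Subgroup K).equivMapOfInjective K.subtype K.subtype_injective).toEquiv).symm
  -- `P ⊓ C(A) = P₀`
  have hPC : P ⊓ centralizer (A : Set G) = P₀ := by
    apply le_antisymm _ (le_inf hQ1 (hP₀C.trans inf_le_right))
    have hle : P ⊓ centralizer (A : Set G) ≤ C := inf_le_inf_right _ hPK
    have h1 : IsPGroup p ((P ⊓ centralizer (A : Set G) : Subgroup G).subgroupOf C) :=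
      (hPp.to_le inf_le_left).comap_of_injective C.subtype C.subtype_injective
    have h2 : (P₀' : Subgroup C) ≤ (P ⊓ centralizer (A : Set G) : Subgroup G).subgroupOf C := by
      intro x hx
      have h3 : (x : G) ∈ P₀ := ⟨x, hx, rfl⟩
      exact ⟨hQ1 h3, hP₀C.trans inf_le_right h3⟩
    have h3 := P₀'.is_maximal' h1 h2
    intro x hx
    have h4 : (⟨x, hle hx⟩ : C) ∈ (P₀' : Subgroup C) := h3 ▸ (show (⟨x, hle hx⟩ : C) ∈ (P ⊓ centralizer (A : Set G) : Subgroup G).subgroupOf C from hx)
    exact ⟨_, h4, rfl⟩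
  have hPcard : Nat.card P = Nat.card P₀ * p := by
    rw [hPcard', hP₀card, Sylow.card_eq_multiplicity, Sylow.card_eq_multiplicity, hcard,
      Nat.factorization_mul (Nat.card_pos).ne' hp.ne_zero, Finsupp.add_apply,
      hp.factorization_self, pow_succ]
  have hP₀P : P₀ ≤ P := hQ1
  have hAP : A ≤ normalizer (P : Set G) := hQ2
  have hcopP : (Nat.card A).Coprime (Nat.card P) :=
    Nat.Coprime.coprime_dvd_right (Subgroup.card_dvd_of_le hPK) hcop
  have hPnil : Group.IsNilpotent P := hPp.isNilpotent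
  have hsolvP : Group.IsSolvable A ∨ Group.IsSolvable P := Or.inr inferInstance
  -- `P₀` normal in `P`
  have hP₀idx : (P₀.subgroupOf P).index = p := by
    have h1 := relIndex_mul_card_inf P₀ P
    have h2 : P₀ ⊓ P = P₀ := inf_eq_left.mpr hP₀P
    rw [h2, hPcard, mul_comm] at h1
    exact Nat.eq_of_mul_eq_mul_left Nat.card_pos h1
  have hP₀n : (P₀.subgroupOf P).Normal :=
    Cfsg.Agent.Lib.PGroup.normal_of_index_eq_prime hPp hP₀idx
  have hP₀nP : P ≤ normalizer (P₀ : Set G) :=
    (Subgroup.normal_subgroupOf_iff_le_normalizer hP₀P).mp hP₀n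
  let T : Subgroup G := ⁅P, A⁆
  have hTP : T ≤ P := commutator_le_of_normalizes hAP
  have hAT : A ≤ normalizer (T : Set G) := le_normalizer_commutator_right hAP
  have hPT : P ≤ normalizer (T : Set G) := le_normalizer_commutator_left A P
  have hTTA : ⁅T, A⁆ = T := commutator_commutator_eq A P hAP hcopP hsolvP
  have hTsup : T ⊔ P₀ = P := by
    have := commutator_sup_centralizer A P hAP hcopP hsolvP
    rwa [hPC] at this
  -- `T` centralizes `P₀`
  have hTcent : T ≤ centralizer (P₀ : Set G) := by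
    rw [Subgroup.commutator_le]
    intro x hx a ha
    rw [Subgroup.mem_centralizer_iff]
    intro e he
    have he' : e ∈ P₀ := he
    have hec : a * e * a⁻¹ = e := by
      have := Subgroup.mem_centralizer_iff.mp (hAcentP₀ ha) e he'
      rw [← this]
      group
    -- the commutator `[x⁻¹, e]` lies in `P₀`, hence is fixed by `a`
    have hxi : x⁻¹ ∈ P := P.inv_mem hx
    have h1 : x⁻¹ * e * x * e⁻¹ ∈ P₀ := by
      have := (Subgroup.mem_normalizer_iff.mp (hP₀nP hxi) e).mp he'
      simp only [inv_inv] at this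
      exact P₀.mul_mem this (P₀.inv_mem he')
    have h2 : a * (x⁻¹ * e * x * e⁻¹) * a⁻¹ = x⁻¹ * e * x * e⁻¹ := by
      have := Subgroup.mem_centralizer_iff.mp (hAcentP₀ ha) _ h1
      rw [← this]
      group
    -- expand
    have h3 : a * (x⁻¹ * e * x * e⁻¹) * a⁻¹ =
        (a * x⁻¹ * a⁻¹) * (a * e * a⁻¹) * (a * x * a⁻¹) * (a * e * a⁻¹)⁻¹ := by group
    rw [h3, hec] at h2
    have h4 : (a * x⁻¹ * a⁻¹) * e * (a * x * a⁻¹) = x⁻¹ * e * x := by
      have := congrArg (· * e) h2
      simpa [mul_assoc] using this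
    have h5 : e * (x * a * x⁻¹ * a⁻¹) = (x * a * x⁻¹ * a⁻¹) * e := by
      have h6 : x * (a * x⁻¹ * a⁻¹) * e * (a * x * a⁻¹) * x⁻¹ = x * (x⁻¹ * e * x) * x⁻¹ := by
        rw [← h4]
        group
      have h7 : x * (x⁻¹ * e * x) * x⁻¹ = e := by group
      rw [h7] at h6
      calc e * (x * a * x⁻¹ * a⁻¹) = (x * (a * x⁻¹ * a⁻¹) * e * (a * x * a⁻¹) * x⁻¹) * (x * a * x⁻¹ * a⁻¹) := by
            rw [h6]
        _ = (x * a * x⁻¹ * a⁻¹) * e := by group
    rw [commutatorElement_def]
    exact h5
  -- `T` abelian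
  have hTab : IsMulCommutative T := by
    let E : Subgroup T := P₀.subgroupOf T
    have hEc : E ≤ center T := by
      intro x hx
      rw [Subgroup.mem_center_iff]
      intro y
      apply Subtype.ext
      exact (Subgroup.mem_centralizer_iff.mp (hTcent y.2) x hx).symm
    have hEn : E.Normal := by
      refine ⟨fun n hn g => ?_⟩
      have := (Subgroup.mem_center_iff.mp (hEc hn)) g
      rw [this]
      simpa using hn
    have hEidx : E.index ∣ p := by
      have h1 : P₀.relIndex T = p := by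
        have h2 := Subgroup.relIndex_sup_right (T.subgroupOf P) (P₀.subgroupOf P)
        have h3 : T.subgroupOf P ⊔ P₀.subgroupOf P = ⊤ := by
          apply Subgroup.map_injective P.subtype_injective
          rw [Subgroup.map_sup, Subgroup.map_subgroupOf_eq_of_le hTP, Subgroup.map_subgroupOf_eq_of_le hP₀P,
            hTsup, ← MonoidHom.range_eq_map, Subgroup.range_subtype]
        rw [h3, Subgroup.relIndex_top_right, hP₀idx, Subgroup.relIndex_subgroupOf hTP] at h2
        exact h2.symm
      show P₀.relIndex T ∣ p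
      rw [h1]
    have hcyc : IsCyclic (T ⧸ E) := by
      have : Nat.card (T ⧸ E) ∣ p := hEidx
      exact isCyclic_of_card_dvd_prime this
    exact IsMulCommutative.of_comm (commutative_of_cyclic_center_quotient (QuotientGroup.mk' E) (by
      rw [QuotientGroup.ker_mk']
      exact hEc))
  have hcopT : (Nat.card A).Coprime (Nat.card T) :=
    Nat.Coprime.coprime_dvd_right (Subgroup.card_dvd_of_le hTP) hcopP
  have hTC : T ⊓ centralizer (A : Set G) = ⊥ := by
    have := (abelian_split A T hAT hcopT).1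
    rw [hTTA] at this
    rw [eq_bot_iff, ← this]
    exact le_inf le_rfl inf_le_left
  have hTP₀ : T ⊓ P₀ = ⊥ := by
    rw [eq_bot_iff, ← hTC]
    exact inf_le_inf_left _ (hP₀C.trans inf_le_right)
  have hTcard : Nat.card T = p := by
    have h1 := card_sup_of_normalizes T P₀ (hP₀P.trans hPT) hTP₀
    rw [hTsup, hPcard, mul_comm] at h1
    exact (Nat.eq_of_mul_eq_mul_right Nat.card_pos h1).symm
  have hTK : T ≤ K := hTP.trans hPK
  -- factorisation `K = C T`
  have hfactor : ∀ k ∈ K, ∃ c ∈ C, ∃ t ∈ T, k = t * c := by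
    intro k hk
    have hrel : (C.subgroupOf K).relIndex (T.subgroupOf K) = (C.subgroupOf K).index := by
      have h1 : (C.subgroupOf K).index = p := hidx
      rw [h1, Subgroup.relIndex_subgroupOf hTK]
      have h2 := relIndex_mul_card_inf C T
      have h3 : C ⊓ T = ⊥ := by
        rw [eq_bot_iff, ← hTC, inf_comm]
        exact inf_le_inf_left _ inf_le_right
      rw [h3, hTcard] at h2
      simpa using h2
    obtain ⟨c, hc, t, ht, hg⟩ := exists_mul_of_relIndex_eq (C.subgroupOf K) (T.subgroupOf K) hrel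
      (⟨k, hk⟩ : K)⁻¹
    have hg' : k⁻¹ = (c : G) * t := congrArg Subtype.val hg
    refine ⟨(c : G)⁻¹, C.inv_mem hc, (t : G)⁻¹, T.inv_mem ht, ?_⟩
    have : k = (k⁻¹)⁻¹ := by group
    rw [this, hg']
    group
  have hle : ⁅K, A⁆ ≤ T := by
    rw [Subgroup.commutator_le]
    intro k hk a ha
    obtain ⟨c, hc, t, ht, rfl⟩ := hfactor k hk
    have hca : c * a = a * c := (Subgroup.mem_centralizer_iff.mp hc.2 a ha).symm
    have h1 : ⁅t * c, a⁆ = ⁅t, a⁆ := by
      simp only [commutatorElement_def]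
      have h2 : t * c * a * (t * c)⁻¹ * a⁻¹ = t * (c * a) * c⁻¹ * t⁻¹ * a⁻¹ := by group
      rw [h2, hca]
      group
    rw [h1]
    exact hTTA ▸ Subgroup.commutator_mem_commutator ht ha
  have hge : T ≤ ⁅K, A⁆ := Subgroup.commutator_mono hPK le_rfl
  rw [le_antisymm hle hge, hTcard]

end Cfsg.Agent.Lib.Hall
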