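import Mathlib
import Cfsg.Agent.Lib.Hall.Schmidt
import Cfsg.Prelude.Def_Transfer

/-!
# Minimal non-abelian groups; quotients of minimal non-nilpotent groups
-/

set_option autoImplicit false

namespace Cfsg.Agent.Lib.Hall

open Cfsg Subgroup Cfsg.Agent.Lib.Core
open scoped Pointwise commutatorElement

universe u

section

variable {G : Type*} [Group G] [Finite G]

/-- A `q'`-element acting on an abelian normal `q`-subgroup centralizing the elements of order `q`
centralizes the subgroup. -/
theorem centralizes_of_omega {q : ℕ} [hq : Fact q.Prime] {Q : Subgroup G} (hQp : IsPGroup q Q)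
    (hQc : ∀ x ∈ Q, ∀ y ∈ Q, x * y = y * x) {a : G} (haQ : a ∈ normalizer (Q : Set G))
    (hao : (orderOf a).Coprime q) (h1 : ∀ w ∈ Q, w ^ q = 1 → a * w * a⁻¹ = w) :
    ∀ x ∈ Q, a * x * a⁻¹ = x := by
  have key : ∀ k : ℕ, ∀ x ∈ Q, x ^ q ^ k = 1 → a * x * a⁻¹ = x := by
    intro k
    induction k with
    | zero =>
      intro x _ hx
      rw [pow_zero, pow_one] at hx
      rw [hx]
      group
    | succ k ih =>
      intro x hx hxk
      have h2 : a * x ^ q * a⁻¹ = x ^ q := by
        apply ih _ (Q.pow_mem hx q)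
        rw [← pow_mul, ← pow_succ']
        exact hxk
      have hax : a * x * a⁻¹ ∈ Q := (mem_normalizer_iff.mp haQ x).mp hx
      set w := a * x * a⁻¹ * x⁻¹ with hw
      have hwQ : w ∈ Q := Q.mul_mem hax (Q.inv_mem hx)
      have hcom : Commute (a * x * a⁻¹) x⁻¹ := hQc _ hax _ (Q.inv_mem hx)
      have hwq : w ^ q = 1 := by
        rw [hw, hcom.mul_pow, inv_pow, conj_pow, h2, mul_inv_cancel]
      have hwfix := h1 w hwQ hwq
      have hax2 : a * x * a⁻¹ = w * x := by rw [hw]; group
      have hn : ∀ n : ℕ, a ^ n * x * (a ^ n)⁻¹ = w ^ n * x := by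
        intro n
        induction n with
        | zero => simp
        | succ n ihn =>
          have hwn : a * w ^ n * a⁻¹ = w ^ n := by
            rw [← conj_pow, hwfix]
          calc a ^ (n + 1) * x * (a ^ (n + 1))⁻¹ = a * (a ^ n * x * (a ^ n)⁻¹) * a⁻¹ := by
                rw [pow_succ']
                group
            _ = a * (w ^ n * x) * a⁻¹ := by rw [ihn]
            _ = (a * w ^ n * a⁻¹) * (a * x * a⁻¹) := by group
            _ = w ^ n * (w * x) := by rw [hwn, hax2]
            _ = w ^ (n + 1) * x := by rw [pow_succ, mul_assoc (w ^ n) w x]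
      have h3 := hn (orderOf a)
      rw [pow_orderOf_eq_one] at h3
      have h4 : w ^ orderOf a = 1 := by
        have h5 : w ^ orderOf a * x = x := by simpa using h3.symm
        exact (mul_eq_right.mp h5)
      have h6 : orderOf w = 1 := Nat.eq_one_of_dvd_coprimes hao (orderOf_dvd_of_pow_eq_one h4)
        (orderOf_dvd_of_pow_eq_one hwq)
      rw [orderOf_eq_one_iff] at h6
      rw [hax2, h6, one_mul]
  intro x hx
  obtain ⟨k, hk⟩ := hQp ⟨x, hx⟩
  exact key k x hx (by simpa using congrArg Subtype.val hk)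

end

/-- **Minimal non-abelian groups.** -/
theorem minimal_nonabelian_structure {G : Type u} [Group G] [Finite G] (hna : ¬ IsMulCommutative G)
    (h : ∀ H : Subgroup G, H ≠ ⊤ → IsMulCommutative H) :
    (∃ p : ℕ, p.Prime ∧ IsPGroup p G) ∨ ∃ p q : ℕ, p.Prime ∧ q.Prime ∧ p ≠ q ∧
      ∃ (P : Sylow p G) (Q : Sylow q G), IsCyclic P ∧ (Q : Subgroup G).Normal ∧
        IsElementaryAbelian q (Q : Subgroup G) ∧ (P : Subgroup G) ⊔ Q = ⊤ := by
  classical
  have hab : ∀ H : Subgroup G, H ≠ ⊤ → ∀ x ∈ H, ∀ y ∈ H, x * y = y * x := by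
    intro H hH x hx y hy
    have := (h H hH).is_comm.comm ⟨x, hx⟩ ⟨y, hy⟩
    exact congrArg Subtype.val this
  have hnil : ∀ H : Subgroup G, H ≠ ⊤ → Group.IsNilpotent H := by
    intro H hH
    letI : CommGroup H := { (inferInstance : Group H) with mul_comm := (h H hH).is_comm.comm }
    exact CommGroup.isNilpotent
  have hna' : ¬ ∀ x y : G, x * y = y * x := fun hc => hna ⟨⟨hc⟩⟩
  by_cases hG : Group.IsNilpotent G
  · left
    have hne : Nat.card G ≠ 1 := by
      intro h1
      have := (Nat.card_eq_one_iff_unique.mp h1).1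
      exact hna' fun x y => Subsingleton.elim _ _
    obtain ⟨p, hp, hpd⟩ := Nat.exists_prime_and_dvd hne
    have hpf : Fact p.Prime := ⟨hp⟩
    refine ⟨p, hp, ?_⟩
    have ht : Group.IsNilpotent (⊤ : Subgroup G) :=
      Group.nilpotent_of_mulEquiv (Subgroup.topEquiv (G := G)).symm
    obtain ⟨A, B, hf⟩ := exists_nilParts p ⊤ ht
    by_cases hA : A = ⊤
    · subst hA
      intro x
      obtain ⟨k, hk⟩ := hf.isP ⟨x, Subgroup.mem_top x⟩
      exact ⟨k, by simpa using congrArg Subtype.val hk⟩
    · exfalso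
      have hB : B ≠ ⊤ := by
        intro hB
        subst hB
        apply hf.not_dvd
        rw [Subgroup.card_top]
        exact hpd
      apply hna'
      intro x y
      obtain ⟨a, ha, b, hb, rfl, hab1⟩ := hf.exists_mul (Subgroup.mem_top x)
      obtain ⟨c, hc, d, hd, rfl, hcd⟩ := hf.exists_mul (Subgroup.mem_top y)
      have h1 : a * c = c * a := hab A hA a ha c hc
      have h2 : b * d = d * b := hab B hB b hb d hd
      have h3 : d * a = a * d := Subgroup.mem_centralizer_iff.mp (hf.comm ha) d hd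
      have h4 : b * c = c * b := Subgroup.mem_centralizer_iff.mp (hf.comm hc) b hb
      calc a * b * (c * d) = a * (b * c) * d := by group
        _ = a * c * (b * d) := by rw [h4]; group
        _ = c * a * (d * b) := by rw [h1, h2]
        _ = c * (a * d) * b := by group
        _ = c * (d * a) * b := by rw [h3]
        _ = c * d * (a * b) := by group
  · right
    obtain ⟨p, q, hp, hq, hpq, P, Q, hPc, hQn, hPQ⟩ :=
      minimal_non_nilpotent_structure ⟨hG, hnil⟩
    have hpf : Fact p.Prime := ⟨hp⟩
    have hqf : Fact q.Prime := ⟨hq⟩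
    refine ⟨p, q, hp, hq, hpq, P, Q, hPc, hQn, ?_, hPQ⟩
    have hQt : (Q : Subgroup G) ≠ ⊤ := by
      intro h1
      apply hG
      have h2 : IsPGroup q G := by
        intro x
        have hx : x ∈ (Q : Subgroup G) := by rw [h1]; trivial
        obtain ⟨k, hk⟩ := Q.isPGroup' ⟨x, hx⟩
        exact ⟨k, by simpa using congrArg Subtype.val hk⟩
      exact h2.isNilpotent
    have hQab := hab _ hQt
    refine ⟨h _ hQt, ?_⟩
    have hPt : (P : Subgroup G) ≠ ⊤ := by
      intro h1
      apply hG
      have h2 : IsPGroup p G := by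
        intro x
        have hx : x ∈ (P : Subgroup G) := by rw [h1]; trivial
        obtain ⟨k, hk⟩ := P.isPGroup' ⟨x, hx⟩
        exact ⟨k, by simpa using congrArg Subtype.val hk⟩
      exact h2.isNilpotent
    have hPab := hab _ hPt
    let Ω : Subgroup G :=
      { carrier := {x | x ∈ (Q : Subgroup G) ∧ x ^ q = 1}
        mul_mem' := by
          rintro x y ⟨hx, hx1⟩ ⟨hy, hy1⟩
          refine ⟨Subgroup.mul_mem _ hx hy, ?_⟩
          have hcom : Commute x y := hQab x hx y hy
          rw [hcom.mul_pow, hx1, hy1, one_mul]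
        one_mem' := ⟨Subgroup.one_mem _, one_pow _⟩
        inv_mem' := by
          rintro x ⟨hx, hx1⟩
          exact ⟨Subgroup.inv_mem _ hx, by rw [inv_pow, hx1, inv_one]⟩ }
    have hΩn : Ω.Normal := by
      constructor
      rintro x ⟨hx, hx1⟩ g
      exact ⟨hQn.conj_mem x hx g, by rw [conj_pow, hx1]; group⟩
    by_contra hne
    have hΩlt : Ω ≠ Q := by
      intro h1
      apply hne
      intro a ha
      have : a ∈ Ω := by rw [h1]; exact ha
      exact this.2
    have hΩle : Ω ≤ Q := fun x hx => hx.1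
    have hsup : (P : Subgroup G) ⊔ Ω ≠ ⊤ := by
      intro h1
      apply hΩlt
      apply Subgroup.eq_of_le_of_card_ge hΩle
      have hndvd : ¬ p ∣ Nat.card (Q : Subgroup G) := by
        intro h2
        obtain ⟨m, hm⟩ := IsPGroup.iff_card.mp Q.isPGroup'
        rw [hm] at h2
        exact hpq ((Nat.prime_dvd_prime_iff_eq hp hq).mp (hp.dvd_of_dvd_pow h2))
      have hPX : ∀ X : Subgroup G, X ≤ Q → (P : Subgroup G) ⊓ X = ⊥ := by
        intro X hX
        apply Subgroup.eq_bot_of_card_eq
        obtain ⟨m, hm⟩ := IsPGroup.iff_card.mp P.isPGroup'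
        have hcop : (Nat.card (P : Subgroup G)).Coprime (Nat.card (Q : Subgroup G)) := by
          rw [hm]
          exact Nat.Coprime.pow_left _ ((Nat.Prime.coprime_iff_not_dvd hp).mpr hndvd)
        exact Nat.eq_one_of_dvd_coprimes hcop (Subgroup.card_dvd_of_le inf_le_left)
          ((Subgroup.card_dvd_of_le inf_le_right).trans (Subgroup.card_dvd_of_le hX))
      have hle : ∀ X : Subgroup G, X.Normal → (P : Subgroup G) ≤ normalizer (X : Set G) := by
        intro X hX
        rw [Subgroup.normalizer_eq_top_iff.mpr hX]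
        exact le_top
      have h2 := card_sup_of_le_normalizer (hle Ω hΩn) (hPX Ω hΩle)
      have h3 := card_sup_of_le_normalizer (hle _ hQn) (hPX _ le_rfl)
      rw [h1] at h2
      rw [hPQ] at h3
      exact (Nat.eq_of_mul_eq_mul_left Nat.card_pos (h3.symm.trans h2)).le
    have hPΩ := hab _ hsup
    have hPc2 : ∀ a ∈ (P : Subgroup G), ∀ x ∈ (Q : Subgroup G), a * x * a⁻¹ = x := by
      intro a ha
      apply centralizes_of_omega Q.isPGroup' hQab
      · rw [Subgroup.normalizer_eq_top_iff.mpr hQn]
        trivial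
      · obtain ⟨k, hk⟩ := P.isPGroup' ⟨a, ha⟩
        have h1 : a ^ p ^ k = 1 := by simpa using congrArg Subtype.val hk
        exact Nat.Coprime.coprime_dvd_left (orderOf_dvd_of_pow_eq_one h1)
          (Nat.Coprime.pow_left _ ((Nat.coprime_primes hp hq).mpr hpq))
      · intro w hw hw1
        have h1 := hPΩ a (Subgroup.mem_sup_left ha) w (Subgroup.mem_sup_right ⟨hw, hw1⟩)
        rw [h1]
        group
    apply hna'
    intro x y
    have hx : x ∈ (P : Subgroup G) ⊔ Q := by rw [hPQ]; trivial
    have hy : y ∈ (P : Subgroup G) ⊔ Q := by rw [hPQ]; trivial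
    obtain ⟨a, ha, b, hb, rfl⟩ := exists_mul_of_mem_sup_normal_right hx
    obtain ⟨c, hc, d, hd, rfl⟩ := exists_mul_of_mem_sup_normal_right hy
    have h1 : a * c = c * a := hPab a ha c hc
    have h2 : b * d = d * b := hQab b hb d hd
    have h3 : a * d = d * a := by
      have := hPc2 a ha d hd
      calc a * d = (a * d * a⁻¹) * a := by group
        _ = d * a := by rw [this]
    have h4 : c * b = b * c := by
      have := hPc2 c hc b hb
      calc c * b = (c * b * c⁻¹) * c := by group
        _ = b * c := by rw [this]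
    calc a * b * (c * d) = a * (b * c) * d := by group
      _ = a * (c * b) * d := by rw [h4]
      _ = (a * c) * (b * d) := by group
      _ = (c * a) * (d * b) := by rw [h1, h2]
      _ = c * (a * d) * b := by group
      _ = c * (d * a) * b := by rw [h3]
      _ = c * d * (a * b) := by group

/-- Quotients of minimal non-nilpotent groups by the derived subgroup of the normal Sylow. -/
theorem minimal_non_nilpotent_quotient {G : Type u} [Group G] [Finite G] (hG : IsMinimalNonNilpotent G)
    (q : ℕ) [hqf : Fact q.Prime] (hq : q ∣ Nat.card G) (Q : Sylow q G) (hQ : (Q : Subgroup G).Normal)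
    (D : Subgroup G) [hDn : D.Normal] (hD : D = (commutator ↥(Q : Subgroup G)).map (Q : Subgroup G).subtype) :
    ¬ IsMulCommutative (G ⧸ D) ∧ ∀ K : Subgroup (G ⧸ D), K ≠ ⊤ → IsMulCommutative K := by
  classical
  obtain ⟨p, q₀, hp, hq₀, hpq, P, Q₀, hPc, hQ₀n, hPQ⟩ := minimal_non_nilpotent_structure hG
  have hnil := hG.1
  have hprop := hG.2
  have hpf : Fact p.Prime := ⟨hp⟩
  have hq₀f : Fact q₀.Prime := ⟨hq₀⟩
  have hqp := hqf.out
  -- `P` is not normal
  have hPn : ¬ (P : Subgroup G).Normal := by
    intro hPn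
    apply hnil
    exact isNilpotent_of_sup_eq_top (P : Subgroup G) (Q₀ : Subgroup G) P.isPGroup'.isNilpotent
      Q₀.isPGroup'.isNilpotent hPQ
  have hcard : Nat.card G = Nat.card (P : Subgroup G) * Nat.card (Q₀ : Subgroup G) := by
    have hQ₀p : ¬ p ∣ Nat.card (Q₀ : Subgroup G) := by
      intro h2
      obtain ⟨m, hm⟩ := IsPGroup.iff_card.mp Q₀.isPGroup'
      rw [hm] at h2
      exact hpq ((Nat.prime_dvd_prime_iff_eq hp hq₀).mp (hp.dvd_of_dvd_pow h2))
    have h1 : (P : Subgroup G) ⊓ Q₀ = ⊥ := by
      apply Subgroup.eq_bot_of_card_eq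
      obtain ⟨m, hm⟩ := IsPGroup.iff_card.mp P.isPGroup'
      have hcop : (Nat.card (P : Subgroup G)).Coprime (Nat.card (Q₀ : Subgroup G)) := by
        rw [hm]
        exact Nat.Coprime.pow_left _ ((Nat.Prime.coprime_iff_not_dvd hp).mpr hQ₀p)
      exact Nat.eq_one_of_dvd_coprimes hcop (Subgroup.card_dvd_of_le inf_le_left)
        (Subgroup.card_dvd_of_le inf_le_right)
    have h2 := card_sup_of_le_normalizer
      (P := (P : Subgroup G)) (Q := (Q₀ : Subgroup G))
      (by rw [Subgroup.normalizer_eq_top_iff.mpr hQ₀n]; exact le_top) h1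
    rw [hPQ, Subgroup.card_top] at h2
    exact h2
  have hqeq : q = q₀ := by
    rw [hcard] at hq
    rcases hqp.dvd_mul.mp hq with h1 | h1
    · exfalso
      obtain ⟨m, hm⟩ := IsPGroup.iff_card.mp P.isPGroup'
      rw [hm] at h1
      have h2 : q = p := (Nat.prime_dvd_prime_iff_eq hqp hp).mp (hqp.dvd_of_dvd_pow h1)
      subst h2
      have hu := Sylow.unique_of_normal Q hQ
      rw [Subsingleton.elim P Q] at hPn
      exact hPn hQ
    · obtain ⟨m, hm⟩ := IsPGroup.iff_card.mp Q₀.isPGroup'
      rw [hm] at h1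
      exact (Nat.prime_dvd_prime_iff_eq hqp hq₀).mp (hqp.dvd_of_dvd_pow h1)
  subst hqeq
  have hQQ : Q = Q₀ := by
    have hu := Sylow.unique_of_normal Q hQ
    exact Subsingleton.elim _ _
  subst hQQ
  let π := QuotientGroup.mk' D
  have hπ : Function.Surjective π := QuotientGroup.mk'_surjective D
  have hker : ∀ g, π g = 1 ↔ g ∈ D := fun g => QuotientGroup.eq_one_iff g
  have hDQ : D ≤ Q := by
    rw [hD]
    rintro _ ⟨x, -, rfl⟩
    exact x.2
  have hcommD : ∀ x ∈ (Q : Subgroup G), ∀ y ∈ (Q : Subgroup G), π x * π y = π y * π x := by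
    intro x hx y hy
    have h1 : x * y * x⁻¹ * y⁻¹ ∈ D := by
      rw [hD]
      refine ⟨⁅(⟨x, hx⟩ : (Q : Subgroup G)), (⟨y, hy⟩ : (Q : Subgroup G))⁆,
        Subgroup.commutator_mem_commutator (Subgroup.mem_top _) (Subgroup.mem_top _), ?_⟩
      simp [commutatorElement_def]
    rw [← hker] at h1
    simp only [map_mul, map_inv] at h1
    calc π x * π y = (π x * π y * (π x)⁻¹ * (π y)⁻¹) * (π y * π x) := by group
      _ = π y * π x := by rw [h1, one_mul]
  constructor
  · intro hc
    -- `P` centralizes `Q`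
    have hcomm' : ∀ a b : G ⧸ D, a * b = b * a := hc.is_comm.comm
    have hcop : (Nat.card (P : Subgroup G)).Coprime (Nat.card (frattini (Q : Subgroup G))) := by
      obtain ⟨m, hm⟩ := IsPGroup.iff_card.mp P.isPGroup'
      have hQ₀p : ¬ p ∣ Nat.card (frattini (Q : Subgroup G)) := by
        intro h2
        have h3 : Nat.card (frattini (Q : Subgroup G)) ∣ Nat.card (Q : Subgroup G) :=
          Subgroup.card_subgroup_dvd_card _
        obtain ⟨m', hm'⟩ := IsPGroup.iff_card.mp Q.isPGroup'
        rw [hm'] at h3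
        exact hpq ((Nat.prime_dvd_prime_iff_eq hp hqp).mp (hp.dvd_of_dvd_pow (h2.trans h3)))
      rw [hm]
      exact Nat.Coprime.pow_left _ ((Nat.Prime.coprime_iff_not_dvd hp).mpr hQ₀p)
    have hle : D ≤ (frattini (Q : Subgroup G)).map (Q : Subgroup G).subtype := by
      rw [hD]
      exact Subgroup.map_mono (Cfsg.Agent.Lib.Transfer.commutator_le_frattini Q.isPGroup')
    have h1 : (P : Subgroup G) ≤ centralizer ((Q : Subgroup G) : Set G) := by
      apply le_centralizer_of_frattini _ _ _ hcop
      · intro a _ k _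
        apply hle
        rw [← hker]
        simp only [map_mul, map_inv]
        rw [hcomm' (π a) (π k)]
        group
      · rw [Subgroup.normalizer_eq_top_iff.mpr hQ]
        exact le_top
    apply hPn
    rw [← Subgroup.normalizer_eq_top_iff, eq_top_iff, ← hPQ]
    refine sup_le Subgroup.le_normalizer ?_
    intro x hx
    apply centralizer_le_normalizer'
    refine Subgroup.mem_centralizer_iff.mpr fun a ha => ?_
    exact (Subgroup.mem_centralizer_iff.mp (h1 ha) x hx).symm
  · intro Kb hKb
    let K : Subgroup G := Kb.comap π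
    have hKt : K ≠ ⊤ := by
      intro h1
      apply hKb
      rw [← Subgroup.map_comap_eq_self_of_surjective hπ Kb]
      change K.map π = ⊤
      rw [h1, ← MonoidHom.range_eq_map, MonoidHom.range_eq_top]
      exact hπ
    have hKn := hprop K hKt
    obtain ⟨A, B, hf⟩ := exists_nilParts q K hKn
    have hAQ : A ≤ Q := by
      obtain ⟨S, hS⟩ := hf.isP.exists_le_sylow
      have hu := Sylow.unique_of_normal Q hQ
      rwa [Subsingleton.elim S Q] at hS
    -- `G / Q` is cyclic so commutators lie in `Q`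
    have hQcomm : ∀ x y : G, x * y * x⁻¹ * y⁻¹ ∈ (Q : Subgroup G) := by
      intro x y
      have hcyc : IsCyclic (G ⧸ (Q : Subgroup G)) := by
        have hs : Function.Surjective ((QuotientGroup.mk' (Q : Subgroup G)).comp (P : Subgroup G).subtype) := by
          intro z
          obtain ⟨g, rfl⟩ := QuotientGroup.mk'_surjective (Q : Subgroup G) z
          have hg : g ∈ (P : Subgroup G) ⊔ Q := by rw [hPQ]; trivial
          obtain ⟨a, ha, b, hb, rfl⟩ := exists_mul_of_mem_sup_normal_right hg
          refine ⟨⟨a, ha⟩, ?_⟩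
          have hb1 : QuotientGroup.mk' (Q : Subgroup G) b = 1 := (QuotientGroup.eq_one_iff b).mpr hb
          simpa using hb
        exact isCyclic_of_surjective _ hs
      have hc : ∀ a b : G ⧸ (Q : Subgroup G), a * b = b * a := by
        intro a b
        obtain ⟨g, hg⟩ := IsCyclic.exists_generator (α := G ⧸ (Q : Subgroup G))
        obtain ⟨i, hi⟩ := hg a
        obtain ⟨j, hj⟩ := hg b
        have hi' : g ^ i = a := hi
        have hj' : g ^ j = b := hj
        rw [← hi', ← hj']
        exact zpow_mul_comm g i j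
      rw [← QuotientGroup.eq_one_iff]
      change QuotientGroup.mk' (Q : Subgroup G) _ = 1
      simp only [map_mul, map_inv]
      rw [hc (QuotientGroup.mk' (Q : Subgroup G) x)]
      group
    have hBcomm : ∀ x ∈ B, ∀ y ∈ B, x * y = y * x := by
      intro x hx y hy
      have h1 := hQcomm x y
      have h2 : x * y * x⁻¹ * y⁻¹ ∈ B := by
        refine B.mul_mem (B.mul_mem (B.mul_mem hx hy) (B.inv_mem hx)) (B.inv_mem hy)
      have h3 : (Q : Subgroup G) ⊓ B = ⊥ := by
        apply Subgroup.eq_bot_of_card_eq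
        obtain ⟨m, hm⟩ := IsPGroup.iff_card.mp Q.isPGroup'
        have hcop : (Nat.card (Q : Subgroup G)).Coprime (Nat.card B) := by
          rw [hm]
          exact Nat.Coprime.pow_left _ ((Nat.Prime.coprime_iff_not_dvd hqp).mpr hf.not_dvd)
        exact Nat.eq_one_of_dvd_coprimes hcop (Subgroup.card_dvd_of_le inf_le_left)
          (Subgroup.card_dvd_of_le inf_le_right)
      have h4 : x * y * x⁻¹ * y⁻¹ ∈ (Q : Subgroup G) ⊓ B := ⟨h1, h2⟩
      rw [h3, Subgroup.mem_bot] at h4
      calc x * y = (x * y * x⁻¹ * y⁻¹) * (y * x) := by group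
        _ = y * x := by rw [h4, one_mul]
    refine ⟨⟨?_⟩⟩
    rintro ⟨u, hu⟩ ⟨v, hv⟩
    obtain ⟨x, rfl⟩ := hπ u
    obtain ⟨y, rfl⟩ := hπ v
    apply Subtype.ext
    change π x * π y = π y * π x
    obtain ⟨a, ha, b, hb, rfl, hab⟩ := hf.exists_mul (show x ∈ K from hu)
    obtain ⟨c, hc, d, hd, rfl, hcd⟩ := hf.exists_mul (show y ∈ K from hv)
    have h1 : π a * π c = π c * π a := hcommD a (hAQ ha) c (hAQ hc)
    have h2 : b * d = d * b := hBcomm b hb d hd
    have h3 : d * a = a * d := Subgroup.mem_centralizer_iff.mp (hf.comm ha) d hd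
    have h4 : b * c = c * b := Subgroup.mem_centralizer_iff.mp (hf.comm hc) b hb
    simp only [map_mul]
    have h2' : π b * π d = π d * π b := by rw [← map_mul, h2, map_mul]
    have h3' : π d * π a = π a * π d := by rw [← map_mul, h3, map_mul]
    have h4' : π b * π c = π c * π b := by rw [← map_mul, h4, map_mul]
    calc π a * π b * (π c * π d) = π a * (π b * π c) * π d := by group
      _ = (π a * π c) * (π b * π d) := by rw [h4']; group
      _ = (π c * π a) * (π d * π b) := by rw [h1, h2']
      _ = π c * (π a * π d) * π b := by group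
      _ = π c * (π d * π a) * π b := by rw [h3']
      _ = π c * π d * (π a * π b) := by group

end Cfsg.Agent.Lib.Hall
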