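import Mathlib
import Cfsg.Agent.Lib.Core.Factor
import Cfsg.Agent.Lib.Core.Conj
import Cfsg.Agent.Lib.Core.Product
import Cfsg.Agent.Lib.PGroup.Basic
import Cfsg.Agent.Lib.Hall.Basic

/-!
# Products of Hall subgroups as sets.
-/

set_option autoImplicit false

namespace Cfsg.Agent.Lib.Hall

open Cfsg Subgroup Cfsg.Agent.Lib.Core
open scoped Pointwise

/-- A numerical criterion for a set product of subgroups to be a subgroup. -/
theorem set_mul_eq_of_card {G : Type*} [Group G] [Finite G] (A B R : Subgroup G) (hA : A ≤ R) (hB : B ≤ R)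
    (h : Nat.card R * Nat.card (A ⊓ B : Subgroup G) ≤ Nat.card A * Nat.card B) :
    (R : Set G) = (A : Set G) * (B : Set G) := by
  let H := A.subgroupOf R
  let K := B.subgroupOf R
  have cardH : Nat.card H = Nat.card A := Nat.card_congr (Subgroup.subgroupOfEquivOfLe hA).toEquiv
  have cardK : Nat.card K = Nat.card B := Nat.card_congr (Subgroup.subgroupOfEquivOfLe hB).toEquiv
  have hHK : H ⊓ K = (A ⊓ B).subgroupOf R := by
    ext x
    simp [Subgroup.mem_subgroupOf, H, K]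
  have cardHK : Nat.card (H ⊓ K : Subgroup R) = Nat.card (A ⊓ B : Subgroup G) := by
    rw [hHK]
    exact Nat.card_congr (Subgroup.subgroupOfEquivOfLe (inf_le_left.trans hA)).toEquiv
  have h1 := Cfsg.Agent.Lib.PGroup.card_inf_mul_relIndex H K
  have h2 := H.card_mul_index
  have h3 : H.relIndex K ≤ H.index := by
    have h5 : (H ⊓ K).relIndex K * K.index = (H ⊓ K).index := Subgroup.relIndex_mul_index inf_le_right
    rw [Subgroup.inf_relIndex_right] at h5
    have h6 : (H ⊓ K).index ≤ H.index * K.index := Subgroup.index_inf_le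
    rw [← h5] at h6
    exact Nat.le_of_mul_le_mul_right h6 (Nat.pos_of_ne_zero Subgroup.index_ne_zero_of_finite)
  have h4 : H.index ≤ H.relIndex K := by
    rw [cardHK, cardK] at h1
    rw [cardH] at h2
    rw [← h1, ← h2] at h
    have ha : 0 < Nat.card A := Nat.card_pos
    have hc : 0 < Nat.card (A ⊓ B : Subgroup G) := Nat.card_pos
    have h7 : (Nat.card A * Nat.card (A ⊓ B : Subgroup G)) * H.index ≤
        (Nat.card A * Nat.card (A ⊓ B : Subgroup G)) * H.relIndex K := by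
      calc _ = Nat.card A * H.index * Nat.card (A ⊓ B : Subgroup G) := by ring
        _ ≤ _ := h
        _ = _ := by ring
    exact Nat.le_of_mul_le_mul_left h7 (Nat.mul_pos ha hc)
  have heq : H.relIndex K = H.index := le_antisymm h3 h4
  apply Set.Subset.antisymm
  · intro g hg
    obtain ⟨x, hx, y, hy, he⟩ := Cfsg.Agent.Lib.Core.exists_mul_of_relIndex_eq H K heq (⟨g, hg⟩ : R)
    refine Set.mem_mul.mpr ⟨x, hx, y, hy, ?_⟩
    have := congrArg Subtype.val he
    simpa using this.symm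
  · rintro _ ⟨a, ha, b, hb, rfl⟩
    exact R.mul_mem (hA ha) (hB hb)

/-- Conjugation distributes over the product set. -/
theorem conj_set_mul {G : Type*} [Group G] (g : G) {A B T : Subgroup G}
    (h : (T : Set G) = (A : Set G) * (B : Set G)) :
    ((MulAut.conj g • T : Subgroup G) : Set G) =
      ((MulAut.conj g • A : Subgroup G) : Set G) * ((MulAut.conj g • B : Subgroup G) : Set G) := by
  ext z
  constructor
  · intro hz
    have hz' : z ∈ MulAut.conj g • T := hz
    rw [mem_conj_smul_iff] at hz'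
    have h2 : g⁻¹ * z * g ∈ (T : Set G) := hz'
    rw [h] at h2
    obtain ⟨a, ha, b, hb, hab⟩ := h2
    refine Set.mem_mul.mpr ⟨g * a * g⁻¹, conj_mem_conj_smul ha, g * b * g⁻¹, conj_mem_conj_smul hb, ?_⟩
    have h3 : z = g * (g⁻¹ * z * g) * g⁻¹ := by group
    rw [h3, ← hab]
    group
  · rintro ⟨a, ha, b, hb, rfl⟩
    have ha' : a ∈ MulAut.conj g • A := ha
    have hb' : b ∈ MulAut.conj g • B := hb
    rw [mem_conj_smul_iff] at ha' hb'
    have h2 : (g⁻¹ * a * g) * (g⁻¹ * b * g) ∈ (T : Set G) := by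
      rw [h]
      exact Set.mem_mul.mpr ⟨_, ha', _, hb', rfl⟩
    have h3 : g⁻¹ * (a * b) * g ∈ T := by
      have h4 : g⁻¹ * (a * b) * g = (g⁻¹ * a * g) * (g⁻¹ * b * g) := by group
      rw [h4]
      exact h2
    show a * b ∈ MulAut.conj g • T
    rw [mem_conj_smul_iff]
    exact h3

/-- The conjugates of normal subgroups of the factors are conjugated simultaneously. -/
theorem exists_conj_of_mul_normal {G : Type*} [Group G] {H K A B : Subgroup G}
    (hHK : ∀ g : G, ∃ h ∈ H, ∃ k ∈ K, g = h * k) (hA : A ≤ H) (hAn : (A.subgroupOf H).Normal)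
    (hB : B ≤ K) (hBn : (B.subgroupOf K).Normal) (x y : G) :
    ∃ g : G, MulAut.conj x • A = MulAut.conj g • A ∧ MulAut.conj y • B = MulAut.conj g • B := by
  obtain ⟨h, hh, k, hk, hhk⟩ := hHK (x⁻¹ * y)
  have hHN : H ≤ normalizer (A : Set G) := Subgroup.le_normalizer_of_normal_subgroupOf hA
  have hKN : K ≤ normalizer (B : Set G) := Subgroup.le_normalizer_of_normal_subgroupOf hB
  refine ⟨x * h, ?_, ?_⟩
  · rw [map_mul, mul_smul, conj_smul_eq_self_of_mem_normalizer (hHN hh)]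
  · have h1 : x * h = y * k⁻¹ := by
      have h2 : y = x * (h * k) := by
        rw [← hhk]
        group
      rw [h2]
      group
    rw [h1, map_mul, mul_smul, conj_smul_eq_self_of_mem_normalizer (hKN (K.inv_mem hk))]

theorem hall_arith (a b a' b' n : ℕ) (hna : a * a' = n) (hnb : b * b' = n) (ha0 : 0 < a) (hb0 : 0 < b) :
    ∃ d a₁ b₁ w : ℕ, a = d * a₁ ∧ b = d * b₁ ∧ n = d * a₁ * b₁ * w ∧ a₁ ∣ b' ∧ b₁ ∣ a' ∧ w ∣ a' ∧ w ∣ b' ∧
      0 < d ∧ d = Nat.gcd a b := by
  have hd0 : 0 < Nat.gcd a b := Nat.gcd_pos_of_pos_left _ ha0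
  obtain ⟨a₁, ha₁⟩ : Nat.gcd a b ∣ a := Nat.gcd_dvd_left _ _
  obtain ⟨b₁, hb₁⟩ : Nat.gcd a b ∣ b := Nat.gcd_dvd_right _ _
  generalize hdd : Nat.gcd a b = d at *
  have hl : Nat.lcm a b = d * a₁ * b₁ := by
    have h5 := Nat.gcd_mul_lcm a b
    rw [hdd] at h5
    apply Nat.eq_of_mul_eq_mul_left hd0
    rw [h5]
    conv_lhs => rw [ha₁, hb₁]
    ring
  have h3 : Nat.lcm a b ∣ n := Nat.lcm_dvd ⟨a', hna.symm⟩ ⟨b', hnb.symm⟩
  rw [hl] at h3
  obtain ⟨w, hw⟩ := h3
  have e1 : a' = b₁ * w := by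
    apply Nat.eq_of_mul_eq_mul_left ha0
    rw [hna, hw]
    conv_rhs => rw [ha₁]
    ring
  have e2 : b' = a₁ * w := by
    apply Nat.eq_of_mul_eq_mul_left hb0
    rw [hnb, hw]
    conv_rhs => rw [hb₁]
    ring
  exact ⟨d, a₁, b₁, w, ha₁, hb₁, hw, ⟨w, e2⟩, ⟨w, e1⟩, ⟨b₁, by rw [e1]; ring⟩, ⟨a₁, by rw [e2]; ring⟩, hd0, rfl⟩

/-- Two Hall subgroups of a solvable group have permuting conjugates. -/
theorem exists_conj_permute {G : Type*} [Group G] [Finite G] [Group.IsSolvable G] (A B : Subgroup G)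
    (hAh : (Nat.card A).Coprime A.index) (hBh : (Nat.card B).Coprime B.index) :
    ∃ (u v : G) (T : Subgroup G), (T : Set G) =
      ((MulAut.conj u • A : Subgroup G) : Set G) * ((MulAut.conj v • B : Subgroup G) : Set G) := by
  classical
  have hna := A.card_mul_index
  have hnb := B.card_mul_index
  obtain ⟨d, a₁, b₁, w, ha₁, hb₁, hw, ha₁b', hb₁a', hwa', hwb', hd0, hd⟩ := hall_arith (Nat.card A) (Nat.card B)
    A.index B.index (Nat.card G) hna hnb Nat.card_pos Nat.card_pos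
  set a := Nat.card A with ha
  set b := Nat.card B with hb
  set a' := A.index with ha'
  set b' := B.index with hb'
  set t := d * a₁ * b₁ with ht
  have hta : t = a * b₁ := by rw [ht, ha₁]
  have htb : t = b * a₁ := by rw [ht, hb₁]; ring
  have hcta : a.Coprime w := Nat.Coprime.coprime_dvd_right hwa' hAh
  have hctb : b.Coprime w := Nat.Coprime.coprime_dvd_right hwb' hBh
  have hctw : t.Coprime w := by
    have h1 : (a * b).Coprime w := Nat.Coprime.mul_left hcta hctb
    have h2 : t ∣ a * b := by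
      refine ⟨d, ?_⟩
      rw [ht, ha₁, hb₁]
      ring
    exact Nat.Coprime.coprime_dvd_left h2 h1
  obtain ⟨T, hT⟩ := exists_card_eq_of_solvable (G := G) t w hw hctw
  -- inside `T`
  have hTs : Group.IsSolvable T := inferInstance
  have hdA : d.Coprime b₁ := Nat.Coprime.coprime_dvd_left (hd ▸ Nat.gcd_dvd_left a b) (Nat.Coprime.coprime_dvd_right hb₁a' hAh)
  have hdB : d.Coprime a₁ := Nat.Coprime.coprime_dvd_left (hd ▸ Nat.gcd_dvd_right a b) (Nat.Coprime.coprime_dvd_right ha₁b' hBh)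
  have hcardT : Nat.card T = d * (a₁ * b₁) := by rw [hT, ht]; ring
  obtain ⟨D, hD⟩ := exists_card_eq_of_solvable (G := T) d (a₁ * b₁) hcardT (Nat.Coprime.mul_right hdB hdA)
  have hcardT1 : Nat.card T = a * b₁ := by rw [hT, hta]
  have hcardT2 : Nat.card T = b * a₁ := by rw [hT, htb]
  obtain ⟨A₁, hA₁, hDA₁⟩ := exists_card_eq_and_le_of_solvable (G := T) a b₁ hcardT1
    (Nat.Coprime.coprime_dvd_right hb₁a' hAh) D (by rw [hD]; exact hdA)
  obtain ⟨B₁, hB₁, hDB₁⟩ := exists_card_eq_and_le_of_solvable (G := T) b a₁ hcardT2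
    (Nat.Coprime.coprime_dvd_right ha₁b' hBh) D (by rw [hD]; exact hdB)
  -- the intersection has order `d`
  have hinf : Nat.card (A₁ ⊓ B₁ : Subgroup T) = d := by
    apply le_antisymm
    · apply Nat.le_of_dvd hd0
      rw [hd]
      apply Nat.dvd_gcd
      · exact Subgroup.card_dvd_of_le (inf_le_left (a := A₁) (b := B₁)) |>.trans (by rw [hA₁])
      · exact Subgroup.card_dvd_of_le (inf_le_right (a := A₁) (b := B₁)) |>.trans (by rw [hB₁])
    · apply Nat.le_of_dvd Nat.card_pos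
      rw [← hD]
      exact Subgroup.card_dvd_of_le (le_inf hDA₁ hDB₁)
  have hmul : ((⊤ : Subgroup T) : Set T) = (A₁ : Set T) * (B₁ : Set T) := by
    apply set_mul_eq_of_card _ _ _ le_top le_top
    rw [Subgroup.card_top, hinf, hA₁, hB₁, hT, ht, ha₁, hb₁]
    apply le_of_eq
    ring
  -- Back to `G`
  let A₂ : Subgroup G := A₁.map T.subtype
  let B₂ : Subgroup G := B₁.map T.subtype
  have cA₂ : Nat.card A₂ = a := by
    rw [Subgroup.card_map_of_injective T.subtype_injective, hA₁]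
  have cB₂ : Nat.card B₂ = b := by
    rw [Subgroup.card_map_of_injective T.subtype_injective, hB₁]
  obtain ⟨u, hu⟩ := exists_conj_of_card_eq_of_solvable (G := G) a a' hna.symm hAh A A₂ rfl cA₂
  obtain ⟨v, hv⟩ := exists_conj_of_card_eq_of_solvable (G := G) b b' hnb.symm hBh B B₂ rfl cB₂
  refine ⟨u, v, T, ?_⟩
  rw [hu, hv]
  ext z
  constructor
  · intro hz
    have h1 : (⟨z, hz⟩ : T) ∈ ((⊤ : Subgroup T) : Set T) := Subgroup.mem_top _
    rw [hmul] at h1
    obtain ⟨x, hx, y, hy, hxy⟩ := h1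
    refine Set.mem_mul.mpr ⟨x, ⟨x, hx, rfl⟩, y, ⟨y, hy, rfl⟩, ?_⟩
    exact congrArg Subtype.val hxy
  · rintro ⟨_, ⟨x, -, rfl⟩, _, ⟨y, -, rfl⟩, rfl⟩
    exact T.mul_mem x.2 y.2

end Cfsg.Agent.Lib.Hall
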