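import Mathlib
import Cfsg.Agent.Lib.Hall.Sets
import Cfsg.Agent.Lib.Hall.Converse
import Cfsg.Agent.Lib.Prod.Kegel

/-!
# Sylow systems
-/

set_option autoImplicit false

namespace Cfsg.Agent.Lib.Hall

open Cfsg Subgroup Cfsg.Agent.Lib.Core Cfsg.Agent.Lib.Prod
open scoped Pointwise

universe u

theorem card_of_set_eq_mul {G : Type*} [Group G] [Finite G] {A B Y : Subgroup G}
    (hY : (Y : Set G) = (A : Set G) * (B : Set G)) (hcop : (Nat.card A).Coprime (Nat.card B)) :
    Nat.card Y = Nat.card A * Nat.card B := by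
  have hA : A ≤ Y := by
    intro a ha
    have : a ∈ (Y : Set G) := by
      rw [hY]
      exact ⟨a, ha, 1, B.one_mem, mul_one a⟩
    exact this
  have hB : B ≤ Y := by
    intro x hx
    have : x ∈ (Y : Set G) := by
      rw [hY]
      exact ⟨1, A.one_mem, x, hx, one_mul x⟩
    exact this
  let H := A.subgroupOf Y
  let K := B.subgroupOf Y
  have cardH : Nat.card H = Nat.card A := Nat.card_congr (Subgroup.subgroupOfEquivOfLe hA).toEquiv
  have cardK : Nat.card K = Nat.card B := Nat.card_congr (Subgroup.subgroupOfEquivOfLe hB).toEquiv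
  have hfac : ∀ g : Y, ∃ x ∈ H, ∃ y ∈ K, g = x * y := by
    intro g
    have h1 : (g : G) ∈ (Y : Set G) := g.2
    rw [hY] at h1
    obtain ⟨x, hx, y, hy, hxy⟩ := h1
    refine ⟨⟨x, hA hx⟩, hx, ⟨y, hB hy⟩, hy, ?_⟩
    apply Subtype.ext
    exact hxy.symm
  have h1 := card_mul_card_of_mul hfac
  have h2 : Nat.card (H ⊓ K : Subgroup Y) = 1 := by
    apply Nat.eq_one_of_dvd_coprimes (a := Nat.card A) (b := Nat.card B) hcop
    · rw [← cardH]
      exact Subgroup.card_dvd_of_le inf_le_left
    · rw [← cardK]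
      exact Subgroup.card_dvd_of_le inf_le_right
  rw [h2, mul_one, cardH, cardK] at h1
  exact h1.symm

section Converse

variable {G : Type u} [Group G] [Finite G]
  (S : (p : Nat.Primes) → Sylow (p : ℕ) G)
  (hS : ∀ p q : Nat.Primes, (S p : Set G) * (S q : Set G) = (S q : Set G) * (S p : Set G))

include hS in
theorem permutes_sylow (p q : Nat.Primes) : Permutes (S p : Subgroup G) (S q : Subgroup G) := by
  constructor
  · intro a ha x hx
    have h1 : x * a ∈ (S q : Set G) * (S p : Set G) := Set.mem_mul.mpr ⟨x, hx, a, ha, rfl⟩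
    rw [← hS p q] at h1
    obtain ⟨a', ha', x', hx', h⟩ := h1
    exact ⟨a', ha', x', hx', h.symm⟩
  · intro a ha x hx
    have h1 : a * x ∈ (S p : Set G) * (S q : Set G) := Set.mem_mul.mpr ⟨a, ha, x, hx, rfl⟩
    rw [hS p q] at h1
    obtain ⟨x', hx', a', ha', h⟩ := h1
    exact ⟨x', hx', a', ha', h.symm⟩

theorem permutes_bot (A : Subgroup G) : Permutes A ⊥ := by
  constructor
  · intro a ha x hx
    rw [Subgroup.mem_bot] at hx
    exact ⟨a, ha, 1, Subgroup.one_mem _, by simp [hx]⟩
  · intro a ha x hx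
    rw [Subgroup.mem_bot] at hx
    exact ⟨1, Subgroup.one_mem _, a, ha, by simp [hx]⟩

theorem card_sylow_eq (p : Nat.Primes) (P : Sylow (p : ℕ) G) :
    Nat.card (P : Subgroup G) = (p : ℕ) ^ (Nat.card G).factorization (p : ℕ) := by
  have : Fact (p : ℕ).Prime := ⟨p.2⟩
  exact P.card_eq_multiplicity

include hS in
theorem exists_join (Q : Finset Nat.Primes) :
    (∀ r : Nat.Primes, Permutes (S r : Subgroup G) (Q.sup fun q => (S q : Subgroup G))) ∧
    ∀ r : Nat.Primes, (Nat.card ((Q.sup fun q => (S q : Subgroup G) : Subgroup G))).factorization (r : ℕ) =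
      if r ∈ Q then (Nat.card G).factorization (r : ℕ) else 0 := by
  classical
  induction Q using Finset.induction_on with
  | empty =>
    refine ⟨fun r => permutes_bot _, fun r => ?_⟩
    simp
  | insert r Q hrQ ih =>
    obtain ⟨ih1, ih2⟩ := ih
    rw [Finset.sup_insert]
    change (∀ s : Nat.Primes, Permutes (S s : Subgroup G) ((S r : Subgroup G) ⊔ _)) ∧
      ∀ s : Nat.Primes, (Nat.card ((S r : Subgroup G) ⊔ _ : Subgroup G)).factorization (s : ℕ) = _
    set J := Q.sup fun q => (S q : Subgroup G) with hJ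
    refine ⟨fun s => Permutes.sup (permutes_sylow S hS s r) (ih1 s), fun s => ?_⟩
    obtain ⟨Y, hY⟩ := (ih1 r).exists_subgroup
    have hSY : (S r : Subgroup G) ≤ Y := by
      intro a ha
      have : a ∈ (Y : Set G) := by
        rw [hY]
        exact ⟨a, ha, 1, J.one_mem, mul_one a⟩
      exact this
    have hJY : J ≤ Y := by
      intro x hx
      have : x ∈ (Y : Set G) := by
        rw [hY]
        exact ⟨1, Subgroup.one_mem _, x, hx, one_mul x⟩
      exact this
    have hYle : Y ≤ (S r : Subgroup G) ⊔ J := by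
      intro y hy
      have h1 : y ∈ (Y : Set G) := hy
      rw [hY] at h1
      obtain ⟨a, ha, x, hx, rfl⟩ := h1
      exact Subgroup.mul_mem _ (Subgroup.mem_sup_left ha) (Subgroup.mem_sup_right hx)
    have hYeq : (S r : Subgroup G) ⊔ J = Y := le_antisymm (sup_le hSY hJY) hYle
    rw [hYeq]
    have hrp := r.2
    have hcS := card_sylow_eq r (S r)
    have hnd : ¬ (r : ℕ) ∣ Nat.card J := by
      intro hd
      have h1 := hrp.factorization_pos_of_dvd (Nat.card_pos.ne') hd
      rw [ih2 r, if_neg hrQ] at h1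
      exact lt_irrefl _ h1
    have hcop : (Nat.card (S r : Subgroup G)).Coprime (Nat.card J) := by
      rw [hcS]
      exact Nat.Coprime.pow_left _ ((Nat.Prime.coprime_iff_not_dvd hrp).mpr hnd)
    rw [card_of_set_eq_mul hY hcop, hcS, Nat.factorization_mul (pow_ne_zero _ hrp.ne_zero) (Nat.card_pos.ne'),
      hrp.factorization_pow, Finsupp.add_apply, ih2 s]
    by_cases hsr : s = r
    · subst hsr
      simp [hrQ]
    · have h3 : (r : ℕ) ≠ s := fun h => hsr (Subtype.ext h.symm)
      simp [Finsupp.single_apply, h3, hsr]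

include hS in
/-- A group with a Sylow system is solvable. -/
theorem isSolvable_of_sylow_system : Group.IsSolvable G := by
  classical
  refine isSolvable_of_hallCompl _ G rfl ?_
  intro p hp
  set n := Nat.card G with hn
  let Q : Finset Nat.Primes := Finset.preimage (n.primeFactors.erase p) (fun r : Nat.Primes => (r : ℕ))
    Subtype.val_injective.injOn
  have hQ : ∀ r : Nat.Primes, r ∈ Q ↔ (r : ℕ) ≠ p ∧ (r : ℕ) ∣ n := by
    intro r
    have h0 : r ∈ Q ↔ (r : ℕ) ∈ n.primeFactors.erase p := Finset.mem_preimage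
    rw [h0]
    simp only [Finset.mem_erase, Nat.mem_primeFactors]
    have hn0 : n ≠ 0 := Nat.card_pos.ne'
    have := r.2
    tauto
  obtain ⟨-, h2⟩ := exists_join S hS Q
  set J := Q.sup fun q => (S q : Subgroup G) with hJ
  refine ⟨J, ?_⟩
  have h3 := J.card_mul_index
  have hfac : ∀ r : ℕ, r.Prime → (Nat.card J).factorization r =
      if r = p then 0 else n.factorization r := by
    intro r hr
    let r' : Nat.Primes := ⟨r, hr⟩
    have h4 : (Nat.card J).factorization r = if r' ∈ Q then n.factorization r else 0 := h2 r'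
    have hm : r' ∈ Q ↔ r ≠ p ∧ r ∣ n := hQ r'
    rw [h4]
    by_cases hrp : r = p
    · rw [if_pos hrp, if_neg]
      exact fun h5 => (hm.mp h5).1 hrp
    · rw [if_neg hrp]
      by_cases hrn : r ∣ n
      · rw [if_pos (hm.mpr ⟨hrp, hrn⟩)]
      · rw [if_neg (fun h5 => hrn (hm.mp h5).2), Nat.factorization_eq_zero_of_not_dvd hrn]
  have h5 : Nat.card J * p ^ n.factorization p = n := by
    apply Nat.eq_of_factorization_eq (Nat.mul_ne_zero Nat.card_pos.ne' (pow_ne_zero _ hp.ne_zero)) Nat.card_pos.ne'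
    intro r
    rw [Nat.factorization_mul Nat.card_pos.ne' (pow_ne_zero _ hp.ne_zero), hp.factorization_pow,
      Finsupp.add_apply]
    by_cases hr : r.Prime
    · rw [hfac r hr]
      by_cases hrp : r = p
      · subst hrp
        simp
        rfl
      · simp [hrp, Ne.symm hrp]
        rfl
    · have h6 : p ≠ r := fun h => hr (h ▸ hp)
      simp [Nat.factorization_eq_zero_of_not_prime _ hr, Finsupp.single_apply, h6]
  have h6 : 0 < Nat.card J := Nat.card_pos
  apply Nat.eq_of_mul_eq_mul_left h6
  rw [h3, h5]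

end Converse

section Existence

variable {G : Type u} [Group G] [Finite G] [Group.IsSolvable G]

theorem exists_p_complement (p : ℕ) (hp : p.Prime) :
    ∃ K : Subgroup G, K.index = p ^ (Nat.card G).factorization p := by
  have hn0 : Nat.card G ≠ 0 := Nat.card_pos.ne'
  have h1 := Nat.ordProj_mul_ordCompl_eq_self (Nat.card G) p
  have hcop : (Nat.card G / p ^ (Nat.card G).factorization p).Coprime (p ^ (Nat.card G).factorization p) :=
    (Nat.Coprime.pow_left _ (Nat.coprime_ordCompl hp hn0)).symm
  obtain ⟨K, hK⟩ := exists_card_eq_of_solvable (G := G) _ _ (by rw [mul_comm]; exact h1.symm) hcop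
  refine ⟨K, ?_⟩
  have h2 := K.card_mul_index
  rw [hK] at h2
  have h3 : 0 < Nat.card G / p ^ (Nat.card G).factorization p := Nat.pos_of_ne_zero (fun h => by
    rw [h, mul_zero] at h1
    exact hn0 h1.symm)
  apply Nat.eq_of_mul_eq_mul_left h3
  rw [h2, mul_comm]
  exact h1.symm

/-- The intersection over a finite set of primes. -/
theorem index_iInf_complements (K : Nat.Primes → Subgroup G)
    (hK : ∀ r : Nat.Primes, (K r).index = (r : ℕ) ^ (Nat.card G).factorization (r : ℕ)) (Q : Finset Nat.Primes) :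
    ∀ r : Nat.Primes, (Q.inf K).index.factorization (r : ℕ) =
      if r ∈ Q then (Nat.card G).factorization (r : ℕ) else 0 := by
  classical
  induction Q using Finset.induction_on with
  | empty =>
    intro r
    simp
  | insert r Q hrQ ih =>
    intro s
    rw [Finset.inf_insert]
    have hrp := r.2
    have hnd : ¬ (r : ℕ) ∣ (Q.inf K).index := by
      intro hd
      have h1 := hrp.factorization_pos_of_dvd Subgroup.index_ne_zero_of_finite hd
      rw [ih r, if_neg hrQ] at h1
      exact lt_irrefl _ h1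
    have hcop : (K r).index.Coprime (Q.inf K).index := by
      rw [hK]
      exact Nat.Coprime.pow_left _ ((Nat.Prime.coprime_iff_not_dvd hrp).mpr hnd)
    rw [index_inf_of_coprime _ _ hcop, hK, Nat.factorization_mul (pow_ne_zero _ hrp.ne_zero)
      Subgroup.index_ne_zero_of_finite, hrp.factorization_pow, Finsupp.add_apply, ih s]
    by_cases hsr : s = r
    · subst hsr
      simp [hrQ]
    · have h3 : (r : ℕ) ≠ s := fun h => hsr (Subtype.ext h.symm)
      simp [Finsupp.single_apply, h3, hsr]

/-- A solvable group has a Sylow system. -/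
theorem exists_sylow_system :
    ∃ S : (p : Nat.Primes) → Sylow (p : ℕ) G,
      ∀ p q : Nat.Primes, (S p : Set G) * (S q : Set G) = (S q : Set G) * (S p : Set G) := by
  classical
  set n := Nat.card G with hn
  have hn0 : n ≠ 0 := Nat.card_pos.ne'
  choose K hK using fun r : Nat.Primes => exists_p_complement (G := G) r r.2
  -- The finite set of primes dividing `n` outside a set
  let Qs : Finset ℕ → Finset Nat.Primes := fun X => Finset.preimage (n.primeFactors \ X)
    (fun r : Nat.Primes => (r : ℕ)) Subtype.val_injective.injOn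
  have hQs : ∀ (X : Finset ℕ) (r : Nat.Primes), r ∈ Qs X ↔ (r : ℕ) ∉ X ∧ (r : ℕ) ∣ n := by
    intro X r
    have h0 : r ∈ Qs X ↔ (r : ℕ) ∈ n.primeFactors \ X := Finset.mem_preimage
    rw [h0]
    simp only [Finset.mem_sdiff, Nat.mem_primeFactors]
    have := r.2
    tauto
  have hidx := index_iInf_complements (G := G) K hK
  -- cardinality of `(Qs X).inf K`
  have hcard : ∀ (X : Finset ℕ) (r : ℕ), r.Prime →
      (Nat.card ((Qs X).inf K : Subgroup G)).factorization r = if r ∈ X then n.factorization r else 0 := by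
    intro X r hr
    have h1 := ((Qs X).inf K).card_mul_index
    have h2 : (Nat.card ((Qs X).inf K : Subgroup G) * ((Qs X).inf K).index).factorization r = n.factorization r := by
      rw [h1]
    rw [Nat.factorization_mul Nat.card_pos.ne' Subgroup.index_ne_zero_of_finite, Finsupp.add_apply] at h2
    let r' : Nat.Primes := ⟨r, hr⟩
    have h3 : (((Qs X).inf K : Subgroup G)).index.factorization r = if r' ∈ Qs X then n.factorization r else 0 :=
      hidx (Qs X) r'
    have hm : r' ∈ Qs X ↔ r ∉ X ∧ r ∣ n := hQs X r'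
    rw [h3] at h2
    by_cases hrX : r ∈ X
    · rw [if_pos hrX]
      by_cases hrn : r ∣ n
      · rw [if_neg (fun h5 => (hm.mp h5).1 hrX)] at h2
        omega
      · rw [if_neg (fun h5 => hrn (hm.mp h5).2)] at h2
        omega
    · rw [if_neg hrX]
      by_cases hrn : r ∣ n
      · rw [if_pos (hm.mpr ⟨hrX, hrn⟩)] at h2
        omega
      · rw [if_neg (fun h5 => hrn (hm.mp h5).2)] at h2
        rw [Nat.factorization_eq_zero_of_not_dvd hrn] at h2
        omega
  have hle : ∀ (X Y : Finset ℕ), X ⊆ Y → (Qs X).inf K ≤ (Qs Y).inf K := by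
    intro X Y hXY
    apply Finset.inf_mono
    intro r hr
    rw [hQs] at hr ⊢
    exact ⟨fun h => hr.1 (hXY h) , hr.2⟩
  have hcS : ∀ p : Nat.Primes, Nat.card ((Qs {(p : ℕ)}).inf K : Subgroup G) = (p : ℕ) ^ n.factorization (p : ℕ) := by
    intro p
    have hp := p.2
    apply Nat.eq_of_factorization_eq Nat.card_pos.ne' (pow_ne_zero _ hp.ne_zero)
    intro r
    rw [hp.factorization_pow]
    by_cases hr : r.Prime
    · rw [hcard _ r hr]
      by_cases hrp : r = (p : ℕ)
      · subst hrp
        simp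
      · have h6 : (p : ℕ) ≠ r := Ne.symm hrp
        simp [hrp, Finsupp.single_apply, h6]
    · have h6 : (p : ℕ) ≠ r := fun h => hr (h ▸ hp)
      simp [Nat.factorization_eq_zero_of_not_prime _ hr, Finsupp.single_apply, h6]
  have hcT : ∀ p q : Nat.Primes, (p : ℕ) ≠ q → Nat.card ((Qs {(p : ℕ), (q : ℕ)}).inf K : Subgroup G) =
      (p : ℕ) ^ n.factorization (p : ℕ) * (q : ℕ) ^ n.factorization (q : ℕ) := by
    intro p q hpq
    have hp := p.2
    have hq := q.2
    apply Nat.eq_of_factorization_eq Nat.card_pos.ne'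
      (Nat.mul_ne_zero (pow_ne_zero _ hp.ne_zero) (pow_ne_zero _ hq.ne_zero))
    intro r
    rw [Nat.factorization_mul (pow_ne_zero _ hp.ne_zero) (pow_ne_zero _ hq.ne_zero), hp.factorization_pow,
      hq.factorization_pow, Finsupp.add_apply]
    by_cases hr : r.Prime
    · rw [hcard _ r hr]
      by_cases hrp : r = (p : ℕ)
      · subst hrp
        simp [hpq, hpq.symm, Finsupp.single_apply]
      by_cases hrq : r = (q : ℕ)
      · subst hrq
        simp [hpq, hpq.symm, Finsupp.single_apply]
      have h6 : (p : ℕ) ≠ r := Ne.symm hrp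
      have h7 : (q : ℕ) ≠ r := Ne.symm hrq
      simp [hrp, hrq, Finsupp.single_apply, h6, h7]
    · have h6 : (p : ℕ) ≠ r := fun h => hr (h ▸ hp)
      have h7 : (q : ℕ) ≠ r := fun h => hr (h ▸ hq)
      simp [Nat.factorization_eq_zero_of_not_prime _ hr, Finsupp.single_apply, h6, h7]
  haveI hfact : ∀ p : Nat.Primes, Fact (p : ℕ).Prime := fun p => ⟨p.2⟩
  let S : (p : Nat.Primes) → Sylow (p : ℕ) G := fun p => Sylow.ofCard ((Qs {(p : ℕ)}).inf K) (hcS p)
  have hSc : ∀ p : Nat.Primes, ((S p : Sylow (p : ℕ) G) : Subgroup G) = (Qs {(p : ℕ)}).inf K := fun p => Sylow.coe_ofCard _ _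
  refine ⟨S, fun p q => ?_⟩
  by_cases hpq : (p : ℕ) = q
  · have : p = q := Subtype.ext hpq
    subst this
    rfl
  have hT := hcT p q hpq
  have hle1 := hle {(p : ℕ)} {(p : ℕ), (q : ℕ)} (by simp)
  have hle2 := hle {(q : ℕ)} {(p : ℕ), (q : ℕ)} (by simp)
  have hcop : (Nat.card (S p : Subgroup G)).Coprime (Nat.card (S q : Subgroup G)) := by
    rw [hSc, hSc, hcS, hcS]
    exact Nat.coprime_pow_primes _ _ p.2 q.2 hpq
  have hinf : Nat.card ((S p : Subgroup G) ⊓ (S q : Subgroup G) : Subgroup G) = 1 :=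
    Nat.eq_one_of_dvd_coprimes hcop (Subgroup.card_dvd_of_le inf_le_left) (Subgroup.card_dvd_of_le inf_le_right)
  have hinf' : Nat.card ((S q : Subgroup G) ⊓ (S p : Subgroup G) : Subgroup G) = 1 := by
    rw [inf_comm]
    exact hinf
  have h1 : ((((Qs {(p : ℕ), (q : ℕ)}).inf K : Subgroup G)) : Set G) = (S p : Set G) * (S q : Set G) := by
    apply set_mul_eq_of_card (S p : Subgroup G) (S q : Subgroup G)
    · rw [hSc]
      exact hle1
    · rw [hSc]
      exact hle2
    · rw [hinf, hT, mul_one, hSc, hSc, hcS, hcS]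
  have h2 : ((((Qs {(p : ℕ), (q : ℕ)}).inf K : Subgroup G)) : Set G) = (S q : Set G) * (S p : Set G) := by
    apply set_mul_eq_of_card (S q : Subgroup G) (S p : Subgroup G)
    · rw [hSc]
      exact hle2
    · rw [hSc]
      exact hle1
    · rw [hinf', hT, mul_one, hSc, hSc, hcS, hcS, mul_comm]
  rw [← h1, h2]

end Existence

end Cfsg.Agent.Lib.Hall
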