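import Mathlib
import Cfsg.Agent.Lib.Hall.System
import Cfsg.Agent.Lib.Hall.Frobenius3

/-!
# Hall complement systems II: system normalizers
-/

set_option autoImplicit false

namespace Cfsg.Agent.Lib.Hall

open Cfsg Subgroup Cfsg.Agent.Lib.Core
open scoped Pointwise commutatorElement

universe u

/-- An element normalizing `H` whose order is prime to the index of `H` lies in `H`. -/
theorem mem_of_normalizes_of_coprime {G : Type*} [Group G] [Finite G] {H : Subgroup G} {x : G}
    (hx : x ∈ normalizer (H : Set G)) (hcop : (orderOf x).Coprime H.index) : x ∈ H := by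
  let M := normalizer (H : Set G)
  let H' : Subgroup M := H.subgroupOf M
  have hn : H'.Normal := Subgroup.normal_in_normalizer
  let π := QuotientGroup.mk' H'
  have h1 : orderOf (π ⟨x, hx⟩) ∣ orderOf x := by
    have h2 : orderOf (⟨x, hx⟩ : M) = orderOf x := Subgroup.orderOf_mk x hx
    rw [← h2]
    exact orderOf_map_dvd π _
  have h2 : orderOf (π ⟨x, hx⟩) ∣ H.index := by
    have h3 : orderOf (π ⟨x, hx⟩) ∣ H'.index := orderOf_dvd_natCard _
    have h4 : H'.index ∣ H.index := Subgroup.relIndex_dvd_index_of_le Subgroup.le_normalizer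
    exact h3.trans h4
  have h3 : orderOf (π ⟨x, hx⟩) = 1 := Nat.eq_one_of_dvd_coprimes hcop h1 h2
  rw [orderOf_eq_one_iff] at h3
  have h4 : (⟨x, hx⟩ : M) ∈ H' := (QuotientGroup.eq_one_iff _).mp h3
  exact h4

/-- **System normalizers are nilpotent.** -/
theorem systemNormalizer_isNilpotent {G : Type u} [Group G] [Finite G] {K : Nat.Primes → Subgroup G}
    (hK : IsComplementSystem K) : Group.IsNilpotent (systemNormalizer K) := by
  classical
  refine ((Group.isNilpotent_of_finite_tfae (G := systemNormalizer K)).out 0 3).mpr ?_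
  intro p hp P
  have hpp := hp.out
  let T : Subgroup G := ⨅ (q : Nat.Primes) (_ : (q : ℕ) ≠ p), K q
  have hT : IsPGroup p T := by
    apply IsPGroup.of_card (n := (Nat.card T).primeFactorsList.length)
    apply Nat.eq_prime_pow_of_unique_prime_dvd Nat.card_pos.ne'
    intro d hd hdT
    by_contra hne
    have h1 : T ≤ K ⟨d, hd⟩ := iInf₂_le (⟨d, hd⟩ : Nat.Primes) hne
    exact not_dvd_card_of_index_eq hd (hK ⟨d, hd⟩) (hdT.trans (Subgroup.card_dvd_of_le h1))
  have key : ∀ P : Sylow p (systemNormalizer K), (P : Subgroup (systemNormalizer K)) = T.subgroupOf (systemNormalizer K) := by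
    intro P
    have hle : (P : Subgroup (systemNormalizer K)) ≤ T.subgroupOf (systemNormalizer K) := by
      intro z hz
      rw [Subgroup.mem_subgroupOf]
      simp only [T, Subgroup.mem_iInf]
      intro q hq
      obtain ⟨k, hk⟩ := P.isPGroup' ⟨z, hz⟩
      have h1 : (z : G) ^ p ^ k = 1 := by
        have := congrArg (fun w : P => ((w : systemNormalizer K) : G)) hk
        simpa using this
      have h2 : orderOf (z : G) ∣ p ^ k := orderOf_dvd_of_pow_eq_one h1
      apply mem_of_normalizes_of_coprime
      · exact mem_normalizer_of_conj_smul_eq (mem_systemNormalizer.mp z.2 q)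
      · rw [hK q]
        have h3 : (p ^ k).Coprime ((q : ℕ) ^ (Nat.card G).factorization (q : ℕ)) :=
          Nat.coprime_pow_primes _ _ hpp q.2 (Ne.symm hq)
        exact Nat.Coprime.coprime_dvd_left h2 h3
    have hS : IsPGroup p (T.subgroupOf (systemNormalizer K)) := by
      intro y
      obtain ⟨k, hk⟩ := hT ⟨((y : systemNormalizer K) : G), y.2⟩
      refine ⟨k, ?_⟩
      apply Subtype.ext
      apply Subtype.ext
      simpa using congrArg Subtype.val hk
    exact (P.3 hS hle).symm
  have : Subsingleton (Sylow p (systemNormalizer K)) :=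
    ⟨fun P Q => Sylow.ext ((key P).trans (key Q).symm)⟩
  exact Sylow.normal_of_subsingleton P

theorem systemNormalizer_ne_bot : ∀ (n : ℕ) (G : Type u) [Group G] [Finite G] [Group.IsSolvable G] [Nontrivial G],
    Nat.card G = n → ∀ K : Nat.Primes → Subgroup G, IsComplementSystem K → systemNormalizer K ≠ ⊥ := by
  intro n
  induction n using Nat.strong_induction_on with
  | _ n ih =>
    intro G _ _ _ _ hn K hK
    obtain ⟨A, hAn, hA1, -, hAmin⟩ := exists_minimal_normal_le
      (inferInstance : (⊤ : Subgroup G).Normal) top_ne_bot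
    have hAnn := hAn
    obtain ⟨hAc, r, hr, hAr⟩ := minimal_normal_elementary A hA1 hAmin
    by_cases hAt : A = ⊤
    · have hcomm : ∀ x y : G, x * y = y * x := by
        intro x y
        have hx : x ∈ A := by rw [hAt]; trivial
        have hy : y ∈ A := by rw [hAt]; trivial
        exact congrArg Subtype.val (hAc.is_comm.comm ⟨x, hx⟩ ⟨y, hy⟩)
      obtain ⟨x, hx⟩ := exists_ne (1 : G)
      intro h
      have h1 : x ∈ systemNormalizer K := by
        refine mem_systemNormalizer.mpr fun p => ?_
        apply conj_smul_eq_self_of_mem_normalizer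
        rw [Subgroup.mem_normalizer_iff]
        intro h
        have : x * h * x⁻¹ = h := by rw [hcomm x h]; group
        rw [this]
      rw [h, Subgroup.mem_bot] at h1
      exact hx h1
    · let π := QuotientGroup.mk' A
      have hπ : Function.Surjective π := QuotientGroup.mk'_surjective A
      have hne : Nontrivial (G ⧸ A) := by
        by_contra h3
        rw [not_nontrivial_iff_subsingleton] at h3
        apply hAt
        rw [← Subgroup.index_eq_one]
        exact Nat.card_of_subsingleton (1 : G ⧸ A)
      have hlt : Nat.card (G ⧸ A) < n := by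
        rw [← hn]
        have h1 := A.card_mul_index
        have h3 : Nat.card (G ⧸ A) = A.index := rfl
        rw [h3]
        have h4 : 0 < A.index := Nat.pos_of_ne_zero Subgroup.index_ne_zero_of_finite
        have h5 : 1 < Nat.card A := by
          have := Nat.card_pos (α := A)
          by_contra h6
          exact hA1 (Subgroup.eq_bot_of_card_eq A (by omega))
        nlinarith
      have h1 := ih _ hlt (G ⧸ A) rfl _ (IsComplementSystem_map hK π hπ)
      rw [systemNormalizer_map hK A] at h1
      intro h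
      rw [h, Subgroup.map_bot] at h1
      exact h1 rfl

/-- **The normal closure of a system normalizer is the whole group.** -/
theorem normalClosure_systemNormalizer {G : Type u} [Group G] [Finite G] [Group.IsSolvable G]
    {K : Nat.Primes → Subgroup G} (hK : IsComplementSystem K) :
    Subgroup.normalClosure ((systemNormalizer K : Subgroup G) : Set G) = ⊤ := by
  by_contra hne
  set N := Subgroup.normalClosure ((systemNormalizer K : Subgroup G) : Set G) with hN
  have hNn : N.Normal := Subgroup.normalClosure_normal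
  let π := QuotientGroup.mk' N
  have hπ : Function.Surjective π := QuotientGroup.mk'_surjective N
  have hnt : Nontrivial (G ⧸ N) := by
    by_contra h3
    rw [not_nontrivial_iff_subsingleton] at h3
    apply hne
    rw [← Subgroup.index_eq_one]
    exact Nat.card_of_subsingleton (1 : G ⧸ N)
  have h1 := systemNormalizer_ne_bot _ (G ⧸ N) rfl _ (IsComplementSystem_map hK π hπ)
  rw [systemNormalizer_map hK N] at h1
  apply h1
  rw [eq_bot_iff]
  rintro _ ⟨d, hd, rfl⟩
  rw [Subgroup.mem_bot]
  exact (QuotientGroup.eq_one_iff _).mpr (Subgroup.subset_normalClosure hd)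

/-- A noncentral minimal normal subgroup meets a system normalizer trivially. -/
theorem inf_systemNormalizer_eq_bot {G : Type u} [Group G] [Finite G] [Group.IsSolvable G]
    {K : Nat.Primes → Subgroup G} (hK : IsComplementSystem K) (R : Subgroup G) [hRn : R.Normal]
    (hR1 : R ≠ ⊥) (hmin : ∀ M : Subgroup G, M.Normal → M ≤ R → M = ⊥ ∨ M = R) (hnc : ¬ R ≤ center G) :
    R ⊓ systemNormalizer K = ⊥ := by
  classical
  obtain ⟨hRc, r, hr, hRr⟩ := minimal_normal_elementary R hR1 hmin
  have hrf : Fact r.Prime := ⟨hr⟩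
  have hRpg : IsPGroup r R := by
    intro x
    refine ⟨1, ?_⟩
    apply Subtype.ext
    simpa using hRr x x.2
  let r' : Nat.Primes := ⟨r, hr⟩
  have hKr : ¬ r ∣ Nat.card (K r') := not_dvd_card_of_index_eq hr (hK r')
  obtain ⟨k₀, hk₀⟩ := IsPGroup.iff_card.mp hRpg
  have hRK : R ⊓ K r' = ⊥ := by
    apply Subgroup.eq_bot_of_card_eq
    have hcop : (Nat.card R).Coprime (Nat.card (K r')) := by
      rw [hk₀]
      exact Nat.Coprime.pow_left _ ((Nat.Prime.coprime_iff_not_dvd hr).mpr hKr)
    exact Nat.eq_one_of_dvd_coprimes hcop (Subgroup.card_dvd_of_le inf_le_left)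
      (Subgroup.card_dvd_of_le inf_le_right)
  let C : Subgroup G := centralizer (R : Set G)
  have hCn : C.Normal := inferInstance
  have hCt : C ≠ ⊤ := by
    intro h
    apply hnc
    intro x hx
    rw [Subgroup.mem_center_iff]
    intro g
    have hg : g ∈ C := by rw [h]; trivial
    exact (Subgroup.mem_centralizer_iff.mp hg x hx).symm
  let π := QuotientGroup.mk' C
  have hπ : Function.Surjective π := QuotientGroup.mk'_surjective C
  have hker : ∀ g, π g = 1 ↔ g ∈ C := fun g => QuotientGroup.eq_one_iff g
  have hnt : Nontrivial (G ⧸ C) := by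
    by_contra h3
    rw [not_nontrivial_iff_subsingleton] at h3
    apply hCt
    rw [← Subgroup.index_eq_one]
    exact Nat.card_of_subsingleton (1 : G ⧸ C)
  obtain ⟨Yb, hYbn, hYb1, -, hYbmin⟩ := exists_minimal_normal_le
    (inferInstance : (⊤ : Subgroup (G ⧸ C)).Normal) top_ne_bot
  have hYbnn := hYbn
  obtain ⟨-, q, hq, hYq⟩ := minimal_normal_elementary Yb hYb1 hYbmin
  have hqf : Fact q.Prime := ⟨hq⟩
  have hYpg : IsPGroup q Yb := by
    intro x
    refine ⟨1, ?_⟩
    apply Subtype.ext
    simpa using hYq x x.2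
  let Y : Subgroup G := Yb.comap π
  have hYn : Y.Normal := hYbn.comap π
  -- the centralizer of `Y` in `R` is trivial
  have hcent : ∀ v ∈ R, (∀ y ∈ Y, y * v * y⁻¹ = v) → v = 1 := by
    intro v hv hvY
    let E : Subgroup G := R ⊓ centralizer (Y : Set G)
    have hE : E.Normal := inferInstance
    rcases hmin E hE inf_le_left with h1 | h1
    · have h2 : v ∈ E := by
        refine ⟨hv, Subgroup.mem_centralizer_iff.mpr fun y hy => ?_⟩
        have := hvY y hy
        rw [mul_inv_eq_iff_eq_mul] at this
        exact this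
      rw [h1, Subgroup.mem_bot] at h2
      exact h2
    · exfalso
      apply hYb1
      rw [eq_bot_iff]
      intro yb hyb
      obtain ⟨y, rfl⟩ := hπ yb
      rw [Subgroup.mem_bot, hker]
      refine Subgroup.mem_centralizer_iff.mpr fun w hw => ?_
      have hwE : w ∈ E := by rw [h1]; exact hw
      have := Subgroup.mem_centralizer_iff.mp hwE.2 y hyb
      exact this.symm
  by_cases hqr : q = r
  · exfalso
    subst hqr
    obtain ⟨S⟩ : Nonempty (Sylow q G) := inferInstance
    have hSR : (S : Subgroup G) ≤ normalizer (R : Set G) := by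
      rw [Subgroup.normalizer_eq_top_iff.mpr hRn]
      exact le_top
    have hdvd : q ∣ Nat.card R := by
      have h1 : 1 < Nat.card R := by
        have := Nat.card_pos (α := R)
        by_contra h3
        exact hR1 (Subgroup.eq_bot_of_card_eq R (by omega))
      rw [hk₀] at h1 ⊢
      have hk0 : k₀ ≠ 0 := by
        rintro rfl
        simp at h1
      exact dvd_pow_self q hk0
    obtain ⟨d, hd, hd1, hdfix⟩ := exists_fixed_of_pgroup_action S.isPGroup' hSR hdvd
    apply hd1
    apply hcent d hd
    intro y hy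
    have hSb : Yb ≤ ((S.mapSurjective hπ : Sylow q (G ⧸ C)) : Subgroup (G ⧸ C)) :=
      normal_le_of_not_dvd_index hYpg (Sylow.not_dvd_index _)
    have h1 : π y ∈ ((S.mapSurjective hπ : Sylow q (G ⧸ C)) : Subgroup (G ⧸ C)) := hSb hy
    rw [Sylow.coe_mapSurjective] at h1
    obtain ⟨s, hs, hsy⟩ := h1
    have h2 : s⁻¹ * y ∈ C := by
      rw [← hker, map_mul, map_inv]
      have h4 : π s = π y := hsy
      rw [h4, inv_mul_cancel]
    have h3 : (s⁻¹ * y) * d * (s⁻¹ * y)⁻¹ = d := by
      have := Subgroup.mem_centralizer_iff.mp h2 d hd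
      rw [← this]
      group
    calc y * d * y⁻¹ = s * ((s⁻¹ * y) * d * (s⁻¹ * y)⁻¹) * s⁻¹ := by group
      _ = d := by rw [h3]; exact hdfix s hs
  · -- the main case
    rw [eq_bot_iff]
    rintro x ⟨hxR, hxD⟩
    rw [Subgroup.mem_bot]
    have hxK : ∀ k ∈ K r', x * k * x⁻¹ = k := by
      intro k hk
      have h1 := mem_systemNormalizer.mp hxD r'
      have h2 : x * k * x⁻¹ ∈ K r' := by
        rw [← h1]
        exact conj_mem_conj_smul hk
      have h3 : x * k * x⁻¹ * k⁻¹ ∈ K r' := (K r').mul_mem h2 ((K r').inv_mem hk)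
      have h4 : x * k * x⁻¹ * k⁻¹ ∈ R := by
        have h5 : x * k * x⁻¹ * k⁻¹ = x * (k * x⁻¹ * k⁻¹) := by group
        rw [h5]
        exact R.mul_mem hxR (hRn.conj_mem _ (R.inv_mem hxR) k)
      have h6 : x * k * x⁻¹ * k⁻¹ ∈ R ⊓ K r' := ⟨h4, h3⟩
      rw [hRK, Subgroup.mem_bot] at h6
      exact mul_inv_eq_one.mp h6
    apply hcent x hxR
    intro y hy
    have hnd : ¬ q ∣ ((K r').map π).index := by
      intro h1
      have h2 : ((K r').map π).index ∣ (K r').index := Subgroup.index_map_dvd _ hπ
      rw [hK r'] at h2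
      have h3 := h1.trans h2
      exact hqr ((Nat.prime_dvd_prime_iff_eq hq hr).mp (hq.dvd_of_dvd_pow h3))
    have h1 : π y ∈ (K r').map π := normal_le_of_not_dvd_index hYpg hnd hy
    obtain ⟨k, hk, hky⟩ := h1
    have h2 : k⁻¹ * y ∈ C := by
      rw [← hker, map_mul, map_inv, hky, inv_mul_cancel]
    have h3 : x * (k⁻¹ * y) = (k⁻¹ * y) * x := (Subgroup.mem_centralizer_iff.mp h2 x hxR)
    have h4 := hxK k hk
    have h5 : y = k * (k⁻¹ * y) := by group
    have h6 : (k⁻¹ * y) * x * (k⁻¹ * y)⁻¹ = x := by
      rw [← h3]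
      group
    have h7 : k * x * k⁻¹ = x := by
      have h8 : x * k = k * x := mul_inv_eq_iff_eq_mul.mp h4
      rw [← h8]
      group
    calc y * x * y⁻¹ = k * ((k⁻¹ * y) * x * (k⁻¹ * y)⁻¹) * k⁻¹ := by group
      _ = x := by rw [h6, h7]

/-- **Covering and avoidance.** -/
theorem system_cover_avoid {G : Type u} [Group G] [Finite G] [Group.IsSolvable G]
    {K : Nat.Primes → Subgroup G} (hK : IsComplementSystem K) (A B : Subgroup G) [hAn : A.Normal] [hBn : B.Normal]
    (hAB : A < B) (hchief : ∀ N : Subgroup G, N.Normal → A ≤ N → N ≤ B → N = A ∨ N = B) :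
    (⁅B, (⊤ : Subgroup G)⁆ ≤ A → B ≤ A ⊔ systemNormalizer K) ∧
      (¬ ⁅B, (⊤ : Subgroup G)⁆ ≤ A → B ⊓ systemNormalizer K ≤ A) := by
  let π := QuotientGroup.mk' A
  have hπ : Function.Surjective π := QuotientGroup.mk'_surjective A
  have hker : ∀ g, π g = 1 ↔ g ∈ A := fun g => QuotientGroup.eq_one_iff g
  have hmap := systemNormalizer_map hK A
  have hsys := IsComplementSystem_map hK π hπ
  constructor
  · intro hc b hb
    have hcen : π b ∈ systemNormalizer (fun p => (K p).map (QuotientGroup.mk' A)) := by
      refine mem_systemNormalizer.mpr fun p => ?_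
      apply conj_smul_eq_self_of_mem_normalizer
      rw [Subgroup.mem_normalizer_iff]
      intro h
      obtain ⟨g, rfl⟩ := hπ h
      have h1 : ⁅b, g⁆ ∈ A := hc (Subgroup.commutator_mem_commutator hb (Subgroup.mem_top g))
      rw [← hker, commutatorElement_def] at h1
      simp only [map_mul, map_inv] at h1
      have h2 : π b * π g * (π b)⁻¹ = π g := by
        calc π b * π g * (π b)⁻¹ = (π b * π g * (π b)⁻¹ * (π g)⁻¹) * π g := by group
          _ = π g := by rw [h1, one_mul]
      rw [h2]
    rw [hmap] at hcen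
    obtain ⟨d, hd, hde⟩ := hcen
    have h3 : d⁻¹ * b ∈ A := by
      rw [← hker, map_mul, map_inv]
      have h4 : π d = π b := hde
      rw [h4, inv_mul_cancel]
    have h5 : b = (d * (d⁻¹ * b) * d⁻¹) * d := by group
    rw [h5]
    exact Subgroup.mul_mem _ (Subgroup.mem_sup_left (hAn.conj_mem _ h3 d)) (Subgroup.mem_sup_right hd)
  · intro hnc x ⟨hxB, hxD⟩
    let R : Subgroup (G ⧸ A) := B.map π
    have hRn : R.Normal := hBn.map π hπ
    have hR1 : R ≠ ⊥ := by
      intro h
      apply (not_le_of_gt hAB)
      intro b hb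
      have h1 : π b ∈ R := Subgroup.mem_map_of_mem _ hb
      rw [h, Subgroup.mem_bot, hker] at h1
      exact h1
    have hRmin : ∀ M : Subgroup (G ⧸ A), M.Normal → M ≤ R → M = ⊥ ∨ M = R := by
      intro M hM hMR
      have hc1 : A ≤ M.comap π := by
        intro a ha
        rw [Subgroup.mem_comap, (hker a).mpr ha]
        exact M.one_mem
      have hc2 : M.comap π ≤ B := by
        intro g hg
        obtain ⟨b, hb, hbg⟩ := hMR hg
        have h3 : b⁻¹ * g ∈ A := by
          rw [← hker, map_mul, map_inv]
          have h4 : π b = π g := hbg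
          rw [h4, inv_mul_cancel]
        have h5 : g = b * (b⁻¹ * g) := by group
        rw [h5]
        exact B.mul_mem hb (hAB.le h3)
      rcases hchief _ (hM.comap π) hc1 hc2 with h1 | h1
      · left
        rw [eq_bot_iff]
        intro z hz
        obtain ⟨g, rfl⟩ := hπ z
        rw [Subgroup.mem_bot, hker, ← h1]
        exact hz
      · right
        apply le_antisymm hMR
        rintro _ ⟨b, hb, rfl⟩
        rw [← h1] at hb
        exact hb
    have hRnc : ¬ R ≤ center (G ⧸ A) := by
      intro h
      apply hnc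
      rw [Subgroup.commutator_le]
      intro b hb g _
      have h1 : π b ∈ center (G ⧸ A) := h (Subgroup.mem_map_of_mem _ hb)
      have h2 := Subgroup.mem_center_iff.mp h1 (π g)
      rw [← hker, commutatorElement_def]
      simp only [map_mul, map_inv]
      rw [← h2]
      group
    have h0 := inf_systemNormalizer_eq_bot hsys R hR1 hRmin hRnc
    have h1 : π x ∈ R ⊓ systemNormalizer (fun p => (K p).map (QuotientGroup.mk' A)) := by
      refine ⟨Subgroup.mem_map_of_mem _ hxB, ?_⟩
      rw [hmap]
      exact Subgroup.mem_map_of_mem _ hxD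
    rw [h0, Subgroup.mem_bot, hker] at h1
    exact h1

end Cfsg.Agent.Lib.Hall
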